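/- Principal blocks with four characters and rank two: data, interfaces and jobs
(proofs in `blueprints/K42.md`). -/
import Cfsg.Agent.H24.KSm5
import Cfsg.Agent.H30.FrobSchur
import Cfsg.Agent.H34.Prin
import Cfsg.Agent.H34.Klein
import Cfsg.Agent.H41.RealBlock
import Cfsg.Agent.H36.IrrMap
import Cfsg.Agent.S0940
import Mathlib.LinearAlgebra.CrossProduct

set_option autoImplicit false
set_option linter.unusedSectionVars false

namespace H81.K4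

open Cfsg H28 H35 Subgroup
open scoped ComplexConjugate

universe u

section defs

variable {G : Type u} [Group G]

/-- The principal character. -/
abbrev triv (G : Type u) [Group G] : IrrCharacter G := ⟨fun _ => 1, isIrrCharacter_one⟩

/-- A non-trivial `p`-element. -/
def PEl (p : ℕ) (u : G) : Prop := u ≠ 1 ∧ ∃ k, orderOf u = p ^ k

/-- The centralizer of `u` has a normal `p`-complement. -/
abbrev Npc (p : ℕ) (u : G) : Prop := HasNormalPComplement p (centralizer ({u} : Set G))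

/-- The centralizer of a subgroup. -/
abbrev Cn (R : Subgroup G) : Subgroup G := centralizer (R : Set G)

/-- The principal block is `{1, c 0, c 1, c 2}`. -/
structure Four (M : Ideal AlgInt) (c : Fin 3 → IrrCharacter G) : Prop where
  inj : Function.Injective c
  ne1 : ∀ i, c i ≠ triv G
  mem : ∀ χ, χ ∈ principalBlock M G ↔ χ = triv G ∨ ∃ i, χ = c i

/-- `q = |G|_p`, `x` the degrees, `q 1° = m + ∑ μ i c i`. -/
structure Base (p : ℕ) (c : Fin 3 → IrrCharacter G) (q m : ℤ) (x μ : Fin 3 → ℤ) : Prop where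
  hq : q = (p : ℤ) ^ (Nat.card G).factorization p
  deg : ∀ i, (c i).1 1 = x i
  xsing : ∀ g, p ∣ orderOf g → 1 + ∑ i, (x i : ℂ) * (c i).1 g = 0
  reg : ∀ g, ¬ p ∣ orderOf g → (m : ℂ) + ∑ i, (μ i : ℂ) * (c i).1 g = q
  sing : ∀ g, p ∣ orderOf g → (m : ℂ) + ∑ i, (μ i : ℂ) * (c i).1 g = 0
  ndvd : ¬ (p : ℤ) ∣ m
  μne : ∀ i, μ i ≠ 0
  norm : μ ⬝ᵥ μ = m * (q - m)
  mpos : 0 < m

/-- The lattice of combinations vanishing on the `p`-singular elements has basis `(1, x)`,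
`(0, P)`. -/
structure Lat (p : ℕ) (c : Fin 3 → IrrCharacter G) (q m : ℤ) (x μ : Fin 3 → ℤ) (j A : ℤ)
    (P z : Fin 3 → ℤ) : Prop where
  zP : z ⬝ᵥ P = 1
  Psing : ∀ g, p ∣ orderOf g → ∑ i, (P i : ℂ) * (c i).1 g = 0
  span : ∀ (a₀ : ℂ) (a : Fin 3 → ℂ), (∀ g, p ∣ orderOf g → a₀ + ∑ i, a i * (c i).1 g = 0) →
    ∃ t : ℂ, ∀ i, a i = a₀ * x i + t * P i
  μ_eq : ∀ i, μ i = m * x i + j * P i
  PP : P ⬝ᵥ P = m * A
  xP : x ⬝ᵥ P = -(j * A)
  cop : IsCoprime m j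
  Advd : A ∣ q
  Apos : 0 < A

/-- The columns of the block: regular ones are `x + τ P`, singular ones `(-μ + σ W) / (q - m)`. -/
structure Geo (p : ℕ) (M : Ideal AlgInt) (c : Fin 3 → IrrCharacter G) (q m : ℤ) (x μ : Fin 3 → ℤ)
    (A : ℤ) (P W : Fin 3 → ℤ) (τ σ : G → ℂ) : Prop where
  hW : W = crossProduct x P
  WW : W ⬝ᵥ W = (q - m) * A
  μW : μ ⬝ᵥ W = 0
  μP : μ ⬝ᵥ P = 0
  xW : x ⬝ᵥ W = 0
  PW : P ⬝ᵥ W = 0
  rpos : 0 < q - m
  colR : ∀ g, ¬ p ∣ orderOf g → ∀ i, (c i).1 g = x i + τ g * P i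
  τint : ∀ g, IsIntegral ℤ (τ g)
  τone : τ 1 = 0
  colS : ∀ g, p ∣ orderOf g → ∀ i, ((q - m : ℤ) : ℂ) * (c i).1 g = -(μ i : ℂ) + σ g * W i
  ker : ∀ g h, p ∣ orderOf g → p ∣ orderOf h →
    ((q - m : ℤ) : ℂ) * H41.bker (principalBlock M G) g h = q + σ g * conj (σ h) * A

/-- All the numerical data. -/
structure D (G : Type u) [Group G] where
  c : Fin 3 → IrrCharacter G
  q : ℤ
  m : ℤ
  j : ℤ
  A : ℤ
  x : Fin 3 → ℤ
  μ : Fin 3 → ℤ
  P : Fin 3 → ℤ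
  z : Fin 3 → ℤ
  W : Fin 3 → ℤ
  τ : G → ℂ
  σ : G → ℂ

/-- All the facts. -/
structure Ok (p : ℕ) (M : Ideal AlgInt) (d : D G) : Prop where
  four : Four M d.c
  base : Base p d.c d.q d.m d.x d.μ
  lat : Lat p d.c d.q d.m d.x d.μ d.j d.A d.P d.z
  geo : Geo p M d.c d.q d.m d.x d.μ d.A d.P d.W d.τ d.σ

/-- Frobenius-Schur data. -/
structure FSd [Fintype G] (c : Fin 3 → IrrCharacter G) (μ ε : Fin 3 → ℤ) : Prop where
  pm : ∀ i, ε i = 1 ∨ ε i = -1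
  orth : ε ⬝ᵥ μ = 0
  real : ∀ i g, conj ((c i).1 g) = (c i).1 g
  fs : ∀ i, H30.fsInd (c i).1 = ε i

/-- The relation coming from two classes of `p`-elements. -/
def TwoCl (p : ℕ) (G : Type u) [Group G] (q m : ℤ) : Prop :=
  ∃ u : G, PEl p u ∧
    (p : ℤ) ^ (Nat.card (centralizer ({u} : Set G))).factorization p * (q - m) =
      q + (p : ℤ) ^ (Nat.card (centralizer ({u} : Set G))).factorization p

open Classical in
/-- Convolution with the coefficients of the principal block idempotent, over `H`. -/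
noncomputable def conv [Fintype G] (M : Ideal AlgInt) (H : Subgroup G) (f : G → ℂ) (v : G) : ℂ :=
  ∑ y with y ∈ H, blockCoeff (principalBlock M G) y * f (v * y)

/-- The normalised function on the centralizer of `R`. -/
structure GZ [Fintype G] (p : ℕ) (M : Ideal AlgInt) [M.IsMaximal] (R : Subgroup G) (f : G → ℂ)
    (v₀ : G) : Prop where
  mem : v₀ ∈ Cn R
  reg : ¬ p ∣ orderOf v₀
  val : ∀ g, f g ∈ S M
  f0 : f v₀ = 1
  f1 : f 1 = 0
  sing : ∀ g, p ∣ orderOf g → f g = 0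
  inv : ∀ n ∈ normalizer (R : Set G), ∀ g, f (n * g * n⁻¹) = f g
  fix : ∀ v ∈ Cn R, MemLocalIdeal M (conv M (Cn R) f v - f v)

/-- A lower defect group of the principal block. -/
structure RRd [Fintype G] (p : ℕ) (M : Ideal AlgInt) [M.IsMaximal] (R : Subgroup G) (F : G → ℂ) (v₀ : G) :
    Prop where
  pg : IsPGroup p R
  ne : R ≠ ⊥
  nn : ¬ HasNormalPComplement p (Cn R)
  mem : v₀ ∈ Cn R
  reg : ¬ p ∣ orderOf v₀
  cls : IsClassFunction G F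
  val : ∀ g, F g ∈ S M
  supp : ∀ g, F g ≠ 0 → ¬ p ∣ orderOf g ∧
    p ^ (Nat.card (centralizer ({g} : Set G))).factorization p = Nat.card R
  unit : ¬ MemLocalIdeal M
    (blockPart (principalBlock M G) F v₀ - blockPart (principalBlock M G) F 1)

/-- Invariant alternating forms on `P` vanish. -/
def AltZ (F : Type) [Field F] (P : Subgroup G) : Prop :=
  ∀ ω : G → G → F, (∀ x ∈ P, ∀ y ∈ P, ∀ z ∈ P, ω (x * y) z = ω x z + ω y z) →
    (∀ x ∈ P, ω x x = 0) → (∀ x ∈ P, ∀ y ∈ P, ω y x = - ω x y) →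
    (∀ g, (∀ x ∈ P, g * x * g⁻¹ ∈ P) → ∀ x ∈ P, ∀ y ∈ P, ω (g * x * g⁻¹) (g * y * g⁻¹) = ω x y) →
    ∀ x ∈ P, ∀ y ∈ P, ω x y = 0

/-- `H24.KS.OddIrr` with the parity condition replaced by its only use. -/
structure AbIrr (p : ℕ) (F : Type) [Field F] (P : Subgroup G) : Prop where
  comm : ∀ x ∈ P, ∀ y ∈ P, x * y = y * x
  exp : ∀ x ∈ P, x ^ p = 1
  idx : ¬ p ∣ P.index
  irr : ∀ R : Subgroup G, R ≤ P → (∀ g, (∀ x ∈ P, g * x * g⁻¹ ∈ P) → ∀ x ∈ R, g * x * g⁻¹ ∈ R) →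
    R = ⊥ ∨ R = P
  nt : ∃ g, (∀ x ∈ P, g * x * g⁻¹ ∈ P) ∧ ∃ x ∈ P, g * x * g⁻¹ ≠ x
  alt : AltZ F P

end defs

def JobBase : Prop := ∀ {G : Type u} [Group G] [Fintype G] {p : ℕ} [Fact p.Prime]
  {M : Ideal AlgInt} [M.IsMaximal], IsPModular p M → ∀ {c : Fin 3 → IrrCharacter G}, Four M c →
  ∃ q m x μ, Base p c q m x μ

def JobLat : Prop := ∀ {G : Type u} [Group G] [Fintype G] {p : ℕ} [Fact p.Prime]
  {M : Ideal AlgInt} [M.IsMaximal], IsPModular p M → ∀ {c : Fin 3 → IrrCharacter G}, Four M c →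
  blockRank p (principalBlock M G) = 2 → ∀ {q m : ℤ} {x μ : Fin 3 → ℤ}, Base p c q m x μ →
  ∃ j A P z, Lat p c q m x μ j A P z

def JobGeo : Prop := ∀ {G : Type u} [Group G] [Fintype G] {p : ℕ} [Fact p.Prime]
  {M : Ideal AlgInt} [M.IsMaximal], IsPModular p M → ∀ {c : Fin 3 → IrrCharacter G}, Four M c →
  ∀ {q m : ℤ} {x μ : Fin 3 → ℤ}, Base p c q m x μ → ∀ {j A : ℤ} {P z : Fin 3 → ℤ},
  Lat p c q m x μ j A P z → ∃ W τ σ, Geo p M c q m x μ A P W τ σ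

def JobFS : Prop := ∀ {G : Type u} [Group G] [Fintype G] {p : ℕ} [Fact p.Prime]
  {M : Ideal AlgInt} [M.IsMaximal], IsPModular p M → p ≠ 2 → ∀ {c : Fin 3 → IrrCharacter G},
  Four M c → ∀ {q m : ℤ} {x μ : Fin 3 → ℤ}, Base p c q m x μ → ∃ ε, FSd c μ ε

def JobNum : Prop := ∀ {G : Type u} [Group G] [Fintype G] {p : ℕ} [Fact p.Prime]
  {M : Ideal AlgInt} {d : D G}, Ok p M d → p ≠ 2 → ∀ {ε : Fin 3 → ℤ}, FSd d.c d.μ ε →
  p * (d.q - d.m) ≤ d.q → (p : ℤ) ∣ d.A → d.A * p ≤ d.q →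
  ∀ t : Fin 3 → ℤ, t ⬝ᵥ d.x = -1 → t ⬝ᵥ d.P = 0 →
  p = 3 ∧ (3 * d.A = d.q ∨ (d.A = 3 ∧ d.q - d.m = 1 ∧ (d.W = ε ∨ d.W = -ε)))

def JobCA0 : Prop := ∀ {G : Type u} [Group G] [Fintype G] {p : ℕ} [Fact p.Prime]
  {M : Ideal AlgInt} [M.IsMaximal], IsPModular p M → ∀ {d : D G}, Ok p M d →
  (∀ u : G, PEl p u → Npc p u) → TwoCl p G d.q d.m

def JobP2 : Prop := ∀ {G : Type u} [Group G] [Fintype G] {M : Ideal AlgInt} {d : D G},
  Ok 2 M d → ((∀ u : G, PEl 2 u → Npc 2 u) → TwoCl 2 G d.q d.m) → False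

def JobFA : Prop := ∀ {G : Type u} [Group G] [Fintype G] {p : ℕ} [Fact p.Prime]
  {M : Ideal AlgInt} [M.IsMaximal], IsPModular p M → p ≠ 2 → ∀ {c : Fin 3 → IrrCharacter G},
  Four M c → ∀ {μ ε : Fin 3 → ℤ}, FSd c μ ε → (∀ u : G, PEl p u → Npc p u) →
  ∀ g, p ∣ orderOf g → ∑ i, (ε i : ℂ) * (c i).1 g = 0

def JobCA : Prop := ∀ {G : Type u} [Group G] [Fintype G] {p : ℕ} [Fact p.Prime]
  {M : Ideal AlgInt} {d : D G}, Ok p M d → p ≠ 2 → ∀ {ε : Fin 3 → ℤ}, FSd d.c d.μ ε →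
  (∀ g, p ∣ orderOf g → ∑ i, (ε i : ℂ) * (d.c i).1 g = 0) → TwoCl p G d.q d.m → d.q = 5

def JobOne : Prop := ∀ {G : Type u} [Group G] [Fintype G] {p : ℕ} [Fact p.Prime]
  {M : Ideal AlgInt} [M.IsMaximal], IsPModular p M → ∀ {d : D G}, Ok p M d →
  ∀ {u : G}, PEl p u → ¬ Npc p u →
  (∃ v, u * v = v * u ∧ ¬ p ∣ orderOf v ∧ d.σ (u * v) ≠ d.σ u) ∧ ∀ w : G, PEl p w → IsConj u w

def JobRQ : Prop := ∀ {G : Type u} [Group G] [Fintype G] {p : ℕ} [Fact p.Prime]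
  {M : Ideal AlgInt} [M.IsMaximal], IsPModular p M → ∀ {d : D G}, Ok p M d →
  ∀ {u v : G}, PEl p u → u * v = v * u → ¬ p ∣ orderOf v → d.σ (u * v) ≠ d.σ u →
  p * (d.q - d.m) ≤ d.q

def JobRB : Prop := ∀ {G : Type u} [Group G] [Fintype G] {p : ℕ} [Fact p.Prime]
  {M : Ideal AlgInt} [M.IsMaximal], IsPModular p M → ∀ {R : Subgroup G}, IsPGroup p R →
  ∀ g : Cn R, MemLocalIdeal M
    (blockCoeff (principalBlock M G) (g : G) - blockCoeff (principalBlock M (Cn R)) g)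

def JobOL : Prop := ∀ {G : Type u} [Group G] [Fintype G] {p : ℕ} [Fact p.Prime]
  {M : Ideal AlgInt} [M.IsMaximal], IsPModular p M →
  (∀ {R H : Subgroup G}, IsPGroup p R → R ≤ normalizer (H : Set G) → Cn R ≤ H →
    ∀ {f : G → ℂ}, (∀ g, f g ∈ S M) → (∀ n ∈ R, ∀ g, f (n * g * n⁻¹) = f g) →
    ∀ v ∈ Cn R, MemLocalIdeal M (conv M H f v - conv M (Cn R) f v)) ∧
  ∀ {F : G → ℂ}, IsClassFunction G F → ∀ v, blockPart (principalBlock M G) F v = conv M ⊤ F v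

def JobCV : Prop := JobRB.{u} → ∀ {G : Type u} [Group G] [Fintype G] {p : ℕ} [Fact p.Prime]
  {M : Ideal AlgInt} [M.IsMaximal], IsPModular p M → ∀ {R : Subgroup G}, IsPGroup p R →
  HasNormalPComplement p (Cn R) → ∀ {f : G → ℂ}, (∀ g, f g ∈ S M) →
  ∀ v ∈ Cn R, ¬ p ∣ orderOf v → MemLocalIdeal M (conv M (Cn R) f v - conv M (Cn R) f 1)

def JobGZ : Prop := JobRB.{u} → JobOL.{u} → ∀ {G : Type u} [Group G] [Fintype G] {p : ℕ}
  [Fact p.Prime] {M : Ideal AlgInt} [M.IsMaximal], IsPModular p M → ∀ {R : Subgroup G},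
  IsPGroup p R → ¬ HasNormalPComplement p (Cn R) → ∃ f v₀, GZ p M R f v₀

def JobRR : Prop := JobOL.{u} → ∀ {G : Type u} [Group G] [Fintype G] {p : ℕ} [Fact p.Prime]
  {M : Ideal AlgInt} [M.IsMaximal], IsPModular p M →
  (∀ {R : Subgroup G}, IsPGroup p R → HasNormalPComplement p (Cn R) → ∀ {f : G → ℂ},
    (∀ g, f g ∈ S M) → ∀ v ∈ Cn R, ¬ p ∣ orderOf v →
    MemLocalIdeal M (conv M (Cn R) f v - conv M (Cn R) f 1)) →
  (∀ {R : Subgroup G}, IsPGroup p R → ¬ HasNormalPComplement p (Cn R) → ∃ f v₀, GZ p M R f v₀) →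
  ∀ {u : G}, PEl p u → ¬ Npc p u → ∃ (R : Subgroup G) (F : G → ℂ) (v₀ : G), RRd p M R F v₀

def JobRL : Prop := ∀ {G : Type u} [Group G] [Fintype G] {p : ℕ} [Fact p.Prime]
  {M : Ideal AlgInt} [M.IsMaximal], IsPModular p M → ∀ {d : D G}, Ok p M d →
  ∀ {R : Subgroup G} {F : G → ℂ} {v₀ : G}, RRd p M R F v₀ →
  d.A = Nat.card R ∧ ¬ MemLocalIdeal M (d.τ v₀)

def JobXI : Prop := ∀ {H : Type u} [Group H] [Fintype H] {p : ℕ} [Fact p.Prime]
  {M : Ideal AlgInt} [M.IsMaximal], IsPModular p M → ∀ {u : H}, u ∈ center H → orderOf u = p →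
  ∀ {ξ : H → ℂ}, IsClassFunction H ξ → (∀ ψ : IrrCharacter H, IsIntegral ℤ (classInner ξ ψ.1)) →
  (∀ v, conj (ξ v) = ξ v) → (∃ n : ℤ, ξ 1 = n) → ∀ {Q : ℤ}, Q ≠ 0 →
  (∀ v v', ¬ p ∣ orderOf v → ¬ p ∣ orderOf v' →
    H41.bker (principalBlock M H) v v' = Q + p * ξ v * ξ v') →
  ∀ v₀, ¬ p ∣ orderOf v₀ → MemLocalIdeal M (ξ v₀ - ξ 1)

def JobB3 : Prop := JobXI.{u} → ∀ {G : Type u} [Group G] [Fintype G]
  {M : Ideal AlgInt} [M.IsMaximal], IsPModular 3 M → ∀ {d : D G}, Ok 3 M d →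
  ∀ {ε : Fin 3 → ℤ}, FSd d.c d.μ ε → d.A = 3 → d.q - d.m = 1 → (d.W = ε ∨ d.W = -ε) →
  ∀ {u v₀ : G}, orderOf u = 3 → (∃ n : ℤ, (d.c 0).1 u = n) → u * v₀ = v₀ * u →
  ¬ 3 ∣ orderOf v₀ → MemLocalIdeal M (d.τ v₀)

def JobRef : Prop := ∀ {G : Type u} [Group G] [Finite G] {p : ℕ} [Fact p.Prime] (F : Type)
  [Field F] (P : Sylow p G) {R : Subgroup G}, R ≤ P → Nat.card R * p = Nat.card P →
  ¬ HasNormalPComplement p (Cn R) →
  (∀ x ∈ (P : Subgroup G), ∀ y ∈ (P : Subgroup G), x ≠ 1 → y ≠ 1 → IsConj x y) →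
  AbIrr p F (P : Subgroup G)

def JobH2 : Prop := ∀ {G : Type u} [Group G] [Finite G] {p : ℕ} [Fact p.Prime] {F : Type}
  [Field F] [CharP F p] {P : Subgroup G}, AbIrr p F P → H24.KS.H1 F G ∧ H24.KS.H2z F G

section kit

variable {G : Type u} [Group G] [Fintype G] {p : ℕ} {M : Ideal AlgInt}
  {c : Fin 3 → IrrCharacter G}

theorem Four.c_mem (h : Four M c) (i : Fin 3) : c i ∈ principalBlock M G :=
  (h.mem _).2 (Or.inr ⟨i, rfl⟩)

theorem Four.sum (h : Four M c) {V : Type*} [AddCommMonoid V] (f : IrrCharacter G → V) :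
    ∑ χ ∈ bF (principalBlock M G), f χ = f (triv G) + ∑ i, f (c i) := by
  classical
  have h1 : bF (principalBlock M G) = insert (triv G) (Finset.univ.image c) := by
    ext χ
    simp only [mem_bF, h.mem, Finset.mem_insert, Finset.mem_image, Finset.mem_univ, true_and,
      eq_comm (a := χ)]
  rw [h1, Finset.sum_insert, Finset.sum_image fun a _ b _ hab => h.inj hab]
  simp only [Finset.mem_image, Finset.mem_univ, true_and, not_exists]
  exact h.ne1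

theorem Four.bker (h : Four M c) (g k : G) : H41.bker (principalBlock M G) g k =
    1 + ∑ i, (c i).1 g * conj ((c i).1 k) := by
  rw [H34.bker_eq_sum_bF, h.sum]
  simp

theorem exists_four [M.IsMaximal] (hk : Nat.card (principalBlock M G) = 4) :
    ∃ c : Fin 3 → IrrCharacter G, Four M c := by
  classical
  have ho := mem_bF.2 (H34.one_mem_principalBlock (M := M) (G := G))
  have h3 : ((bF (principalBlock M G)).erase (triv G)).card = 3 := by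
    rw [Finset.card_erase_of_mem ho, card_bF, hk]
  let e := Finset.equivFinOfCardEq h3
  refine ⟨fun i => (e.symm i).1, fun a b hab => e.symm.injective (Subtype.ext hab),
    fun i => (Finset.mem_erase.1 (e.symm i).2).1, fun χ => ⟨fun hχ => ?_, ?_⟩⟩
  · by_cases h1 : χ = triv G
    · exact Or.inl h1
    · exact Or.inr ⟨e ⟨χ, Finset.mem_erase.2 ⟨h1, mem_bF.2 hχ⟩⟩, by simp⟩
  · rintro (rfl | ⟨i, rfl⟩)
    · exact H34.one_mem_principalBlock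
    · exact mem_bF.1 (Finset.mem_erase.1 (e.symm i).2).2

theorem PEl.dvd {u : G} (h : PEl p u) : p ∣ orderOf u := by
  obtain ⟨h1, k, hk⟩ := h
  rcases k with _ | k
  · exact absurd (orderOf_eq_one_iff.1 (by simpa using hk)) h1
  · exact hk ▸ dvd_pow_self p k.succ_ne_zero

end kit

end H81.K4
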