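/- The perfect subgroup of index two in the involution centraliser of `HN`, and its image `HS`
on 352 points. -/
import Cfsg.Agent.H15.OutHN1
import Cfsg.Agent.H81.Nets
set_option maxRecDepth 100000
set_option autoImplicit false
namespace H81.HNMu
open H71 H73 H15.RepHN

/-- the sign of the letters -/
def πS : ℕ → ℤˣ := fun l => if l = 6 then -1 else 1

theorem satS : Sat 6 7 HNs.RC πS :=
  ⟨fun l => by
    rw [linv_eq]
    by_cases h : 6 ≤ l
    · rw [if_pos h]; unfold πS; split_ifs <;> rfl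
    · rw [if_neg h]
      have : ∀ l < 6, πS (l ^^^ 1) = (πS l)⁻¹ := by decide
      exact this l (by omega), rfl, by decide⟩

theorem exχ : ∃ χ : H0 →* gen πS [0, 1, 2, 3, 6], Function.Surjective χ ∧
    ∀ l (hl : l ∈ [0, 1, 2, 3, 6]), χ ⟨HNs.val l, mem_gen _ hl⟩ = ⟨πS l, mem_gen _ hl⟩ :=
  model_hom (HNT.hJ (satS.pair (HNs.sat.mono fun _ hr => List.mem_of_mem_take (i := 10) hr)))
    cardH0.ge

/-- the sign character -/
noncomputable def χ : H0 →* ℤˣ := (Subgroup.subtype _).comp exχ.choose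

theorem χ_val (l : ℕ) (hl : l ∈ [0, 1, 2, 3, 6]) : χ ⟨HNs.val l, mem_gen _ hl⟩ = πS l :=
  congrArg Subtype.val (exχ.choose_spec.2 l hl)

/-- the generators inside `H0` -/
noncomputable def x0 : H0 := ⟨x, x_mem⟩
noncomputable def y0 : H0 := ⟨y, y_mem⟩
noncomputable def z0 : H0 := ⟨z, z_mem⟩

theorem χx : χ x0 = 1 := χ_val 0 (by decide)
theorem χy : χ y0 = 1 := χ_val 2 (by decide)
theorem χz : χ z0 = -1 := χ_val 6 (by decide)
theorem ψx : (ψ x0 : Equiv.Perm ℕ) = HN6.nx.perm := ψ_val 0 (by decide)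
theorem ψy : (ψ y0 : Equiv.Perm ℕ) = HN6.ny.perm := ψ_val 2 (by decide)
theorem ψz : (ψ z0 : Equiv.Perm ℕ) = HN6.nz.perm := ψ_val 6 (by decide)

/-- the double cover of `HS` -/
noncomputable abbrev P : Subgroup H0 := χ.ker

theorem cardP : Nat.card P = 88704000 := by
  have h := Subgroup.card_mul_index P
  rw [Subgroup.index_ker, MonoidHom.range_eq_top.2 (fun u => by
    rcases Int.units_eq_one_or u with rfl | rfl
    exacts [⟨1, map_one _⟩, ⟨z0, χz⟩]), Subgroup.card_top, cardH0, Nat.card_eq_fintype_card (α := ℤˣ),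
    Fintype.card_units_int] at h
  omega

theorem t0_mem : t0 ∈ P := by
  show χ (x0 * x0) = 1
  rw [map_mul, χx, one_mul]

/-- the action of `P` on 352 points -/
noncomputable def τ0 : P →* Equiv.Perm ℕ := (B0.subtype.comp ψ).comp P.subtype

/-- the group `HS` -/
noncomputable abbrev Gb : Subgroup (Equiv.Perm ℕ) := τ0.range

theorem τ0_ker {k : P} (h : τ0 k = 1) : k = 1 ∨ k = ⟨t0, t0_mem⟩ :=
  (ker_cases (k := k) (Subtype.ext h)).imp Subtype.ext Subtype.ext

theorem card_τ0 : Nat.card τ0.ker = 2 := by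
  rw [Nat.card_eq_two_iff' (1 : τ0.ker)]
  refine ⟨⟨⟨t0, t0_mem⟩, congrArg Subtype.val ψ_t0⟩,
    fun e => t0_ne (congrArg (fun g : τ0.ker => g.1.1) e), fun k hk => ?_⟩
  exact Subtype.ext ((τ0_ker k.2).resolve_left fun e => hk (Subtype.ext e))

theorem card : Nat.card Gb = 44352000 := by
  have h := Subgroup.card_mul_index τ0.ker
  rw [Subgroup.index_ker, card_τ0, cardP] at h
  exact Nat.eq_of_mul_eq_mul_left two_pos (h.trans (by norm_num))

instance finGb : Finite Gb := Nat.finite_of_card_ne_zero (by rw [card]; norm_num)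

/-- the conjugate of `y` by `z` -/
noncomputable def nw : Net := Net.revApp HN6.nz (Net.revApp HN6.ny.rev HN6.nz)

theorem good0 : Good 384 Gb.subtype.range [nw, HN6.ny, HN6.nx] := by
  rw [Subgroup.range_subtype]
  refine (((Good.nil _ Gb).cons HN6.vnx ⟨⟨x0, χx⟩, ψx⟩).cons HN6.vny ⟨⟨y0, χy⟩, ψy⟩).cons
    (by decide +kernel) ⟨⟨z0 * y0 * z0⁻¹, (MonoidHom.normal_ker χ).conj_mem _ χy _⟩, ?_⟩
  rw [nw, Net.perm_revApp, Net.perm_revApp, Net.perm_rev, inv_inv, ← ψy, ← ψz]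
  show ((ψ (z0 * y0 * z0⁻¹) : B0) : Equiv.Perm ℕ) = _
  rw [map_mul, map_mul, map_inv]; rfl

end H81.HNMu
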