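import Cfsg.Agent.H20.LD4Spec
import Cfsg.Agent.H59.QT2

/-! LD4 tower, slots MLin and MUni: Heisenberg subgroups of linear, symplectic and unitary groups. -/

set_option autoImplicit false
set_option linter.unusedSectionVars false

namespace H81.LDH

open Matrix H20.LD Cfsg H65.Phan H59
open scoped MatrixGroups commutatorElement

section Gen

variable {H H' : Type*} [Group H] [Group H']

/-- Heisenberg relations with a non-central commutator. -/
structure HZ (r : ℕ) (a b : H) : Prop where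
  ar : a ^ r = 1
  br : b ^ r = 1
  ca : Commute ⁅a, b⁆ a
  cb : Commute ⁅a, b⁆ b

theorem HZ.map {r : ℕ} {a b : H} (h : HZ r a b) (f : H →* H') : HZ r (f a) (f b) :=
  ⟨by rw [← map_pow, h.ar, map_one], by rw [← map_pow, h.br, map_one],
    map_commutatorElement f a b ▸ h.ca.map f, map_commutatorElement f a b ▸ h.cb.map f⟩

theorem HZ.heis {r : ℕ} {a b : H} (h : HZ r a b) (h1 : ⁅a, b⁆ ∉ Subgroup.center H) :
    Heis r (QuotientGroup.mk' (Subgroup.center H) a) (QuotientGroup.mk' _ b) :=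
  have := h.map (QuotientGroup.mk' (Subgroup.center H))
  ⟨this.ar, this.br, fun e => h1 ((QuotientGroup.eq_one_iff _).1
    ((map_commutatorElement (QuotientGroup.mk' _) a b).trans e)), this.ca, this.cb⟩

variable (H) in
/-- A Heisenberg group with real centre. -/
def HR : Prop := ∃ (r : ℕ) (a b g : H), r.Prime ∧ r ≠ 2 ∧ HZ r a b ∧ g * ⁅a, b⁆ * g⁻¹ = ⁅a, b⁆⁻¹ ∧
  ⁅a, b⁆ * ⁅a, b⁆ ≠ 1

theorem HR.map (h : HR H) (f : H →* H') (hf : Function.Injective f) : HR H' := by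
  obtain ⟨r, a, b, g, h1, h2, h3, h4, h5⟩ := h
  refine ⟨r, f a, f b, f g, h1, h2, h3.map f, ?_, ?_⟩ <;> rw [← map_commutatorElement]
  · simpa using congrArg f h4
  · rwa [← map_mul, Ne, map_eq_one_iff _ hf]

theorem HR.heisR (h : HR H) : HeisR H := by
  obtain ⟨r, a, b, g, h1, h2, h3, h4, h5⟩ := h
  exact ⟨r, a, b, h1, h2, ⟨h3.ar, h3.br, fun e => h5 (by rw [e, one_mul]), h3.ca, h3.cb⟩,
    fun _ => Or.inl (isConj_iff.2 ⟨g, h4⟩)⟩

theorem HR.quot (h : HR H) : HeisR (H ⧸ Subgroup.center H) := by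
  obtain ⟨r, a, b, g, h1, h2, h3, h4, h5⟩ := h
  refine ⟨r, _, _, h1, h2, h3.heis fun c => h5 ?_, fun _ => Or.inl (isConj_iff.2
    ⟨QuotientGroup.mk' _ g, by
      rw [← map_commutatorElement, ← map_inv, ← map_inv, ← map_mul, ← map_mul, h4]⟩)⟩
  rw [Subgroup.mem_center_iff.1 c g, mul_inv_cancel_right] at h4
  exact mul_eq_one_iff_eq_inv.2 h4

variable {K : Type*} [Field K] {n : Type*} [Fintype n] [DecidableEq n] {ι : H →* Matrix n n K}
  (hι : Function.Injective ι)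
include hι

theorem pow_eq {r : ℕ} [Nonempty n] [Fact r.Prime] [CharP K r] (h2 : r ≠ 2) {a : H}
    (h : (ι a - 1) ^ 3 = 0) : a ^ r = 1 := hι (by
  have h3 : 3 ≤ r := by have := (Fact.out : r.Prime).two_le; omega
  rw [map_pow, map_one, ← sub_add_cancel (ι a) 1, add_pow_char_of_commute _ (Commute.one_right _),
    pow_eq_zero_of_le h3 h, one_pow, zero_add])

omit hι in
theorem cm_eq {a b : H} {C : Matrix n n K} (h : ι a * ι b = (1 + C) * (ι b * ι a)) :
    ι ⁅a, b⁆ = 1 + C := by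
  rw [commutatorElement_def, mul_assoc, ← _root_.mul_inv_rev, map_mul, map_mul, h, ← map_mul, mul_assoc,
    ← map_mul, mul_inv_cancel, map_one, mul_one]

theorem hz_of {r : ℕ} [Nonempty n] [Fact r.Prime] [CharP K r] (h2 : r ≠ 2) {a b : H}
    {C : Matrix n n K} (ha : (ι a - 1) ^ 3 = 0) (hb : (ι b - 1) ^ 3 = 0)
    (h : ι a * ι b = (1 + C) * (ι b * ι a)) (ca : C * ι a = ι a * C) (cb : C * ι b = ι b * C) :
    HZ r a b :=
  ⟨pow_eq hι h2 ha, pow_eq hι h2 hb, hι (by simp only [map_mul, cm_eq h, add_mul, mul_add, ca]; simp),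
    hι (by simp only [map_mul, cm_eq h, add_mul, mul_add, cb]; simp)⟩

theorem hr_of {r : ℕ} [Nonempty n] [Fact r.Prime] [CharP K r] (h2 : r ≠ 2) (a b g : H)
    (C : Matrix n n K) {A B D : Matrix n n K} (e1 : ι a = A) (e2 : ι b = B) (e3 : ι g = D)
    (ha : (A - 1) ^ 3 = 0) (hb : (B - 1) ^ 3 = 0) (h : A * B = (1 + C) * (B * A)) (ca : C * A = A * C)
    (cb : C * B = B * C) (cg : D * C = -(C * D)) (cc : C * C = 0) (hC : C ≠ 0) : HR H := by
  subst e1 e2 e3
  refine ⟨r, a, b, g, Fact.out, h2, hz_of hι h2 ha hb h ca cb, ?_, fun e => hC ?_⟩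
  · rw [mul_inv_eq_iff_eq_mul, eq_inv_mul_iff_mul_eq]
    refine hι ?_
    rw [map_mul, map_mul, cm_eq h, mul_add, mul_one, cg, mul_add, mul_neg, ← mul_assoc, add_mul 1 C C, cc]
    simp [add_mul]
  · have := congrArg ι e
    simp only [map_mul, cm_eq h, add_mul, mul_add, cc, map_one, one_mul, mul_one, add_zero, add_assoc,
      add_eq_left, ← two_smul K C] at this
    exact (smul_eq_zero.1 this).resolve_left (Ring.two_ne_zero (by rwa [ringChar.eq K r]))

end Gen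

theorem char_odd (K : Type) [Field K] [Fintype K] (h : Odd (Fintype.card K)) :
    ∃ r, Fact r.Prime ∧ CharP K r ∧ r ≠ 2 := by
  obtain ⟨r, hr, k, h1, h2⟩ := FiniteField.card' K
  refine ⟨r, ⟨h1⟩, hr, ?_⟩
  rintro rfl
  rw [h2, Nat.odd_pow_iff k.ne_zero] at h
  exact absurd h (by decide)

/-- entrywise check -/
syntax "m3" : tactic
macro_rules
  | `(tactic| m3) => `(tactic| (
    simp only [pow_three, one_fin_three, of_sub_of, of_add_of, cons_sub_cons, cons_add_cons, empty_sub_empty,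
      empty_add_empty, mul_fin_three]
    ext i l; fin_cases i <;> fin_cases l <;> simp))

variable {K : Type} [Field K] [Fintype K]

theorem hr_SL (h : Odd (Fintype.card K)) : HR SL(3, K) := by
  obtain ⟨r, _, _, h2⟩ := char_odd K h
  refine hr_of (ι := slToMat 3 K) Subtype.val_injective h2
    ⟨!![1, 1, 0; 0, 1, 0; 0, 0, 1], by simp [det_fin_three]⟩
    ⟨!![1, 0, 0; 0, 1, 1; 0, 0, 1], by simp [det_fin_three]⟩
    ⟨!![-1, 0, 0; 0, -1, 0; 0, 0, 1], by simp [det_fin_three]⟩ !![0, 0, 1; 0, 0, 0; 0, 0, 0]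
    (A := !![1, 1, 0; 0, 1, 0; 0, 0, 1]) (B := !![1, 0, 0; 0, 1, 1; 0, 0, 1])
    (D := !![-1, 0, 0; 0, -1, 0; 0, 0, 1]) rfl rfl rfl
    (by m3) (by m3) (by m3) (by m3) (by m3) (by m3) (by m3) fun e => by simpa using congrFun (congrFun e 0) 2

/-- block embedding of special linear groups -/
def slBlk {j m : ℕ} (ι : Fin j ↪ Fin m) : SL(j, K) →* SL(m, K) :=
  MonoidHom.mk' (fun g => ⟨blk ι g.1, by rw [det_blk]; exact g.2⟩) fun a b => Subtype.ext (blk_mul ι _ _)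

/-- the unipotent elements -/
def uu (j s s' : K) : Matrix (Fin 3) (Fin 3) K :=
  !![1 - s * s' / 2, s * s' / 2 * j⁻¹, s; -(s * s' / 2 * j), 1 + s * s' / 2, s * j; -s', s' * j⁻¹, 1]
/-- their centre -/
def cc (j c : K) : Matrix (Fin 3) (Fin 3) K := !![c, -(c * j⁻¹), 0; c * j, -c, 0; 0, 0, 0]

section
variable {j : K} (j0 : j ≠ 0) (t2 : (2 : K) ≠ 0) (s s' c : K)
include j0 t2
omit [Fintype K]

theorem uu_nil : (uu j s s' - 1) ^ 3 = 0 := by
  unfold uu; m3; all_goals (field_simp; ring)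
theorem uu_cm : uu j 1 1 * uu j s s' = (1 + cc j (s - s')) * (uu j s s' * uu j 1 1) := by
  unfold uu cc; m3; all_goals (field_simp; ring)
theorem uu_cc : cc j c * uu j s s' = uu j s s' * cc j c := by
  unfold uu cc; m3; all_goals (field_simp; try ring)
theorem uu_unit {σ : K →+* K} (j1 : σ j = -j⁻¹) (h : σ (σ s) = s) :
    (uu j s (σ s))ᵀ * (uu j s (σ s)).map σ = 1 := by
  have h1 : (uu j s (σ s)).map σ = !![1 - s * σ s / 2, -(s * σ s / 2 * j), σ s;
      s * σ s / 2 * j⁻¹, 1 + s * σ s / 2, -(σ s * j⁻¹); -s, -(s * j), 1] := by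
    ext i l; fin_cases i <;> fin_cases l <;> simp [uu, j1, h, map_ofNat, mul_comm s, mul_comm j⁻¹]
  rw [h1, eta_fin_three (uu j s (σ s))ᵀ]
  m3
  all_goals (simp [uu]; field_simp; ring)
theorem dd_unit {σ : K →+* K} (j1 : σ j = -j⁻¹) : !![0, 1, 0; j ^ 2, 0, 0; 0, 0, -j⁻¹ ^ 2]ᵀ *
    !![0, 1, 0; j ^ 2, 0, 0; 0, 0, -j⁻¹ ^ 2].map σ = 1 := by
  ext i l; fin_cases i <;> fin_cases l <;> simp [mul_apply, Fin.sum_univ_succ, j1] <;> field_simp
theorem dd_cc : !![0, 1, 0; j ^ 2, 0, 0; 0, 0, -j⁻¹ ^ 2] * cc j c =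
    -(cc j c * !![0, 1, 0; j ^ 2, 0, 0; 0, 0, -j⁻¹ ^ 2]) := by
  unfold cc; m3; all_goals (field_simp; try ring)
theorem cc_cc : cc j c * cc j c = 0 := by unfold cc; m3; all_goals (field_simp; try ring)
theorem uu_det : (uu j s s').det = 1 := by simp [uu, det_fin_three]; field_simp; ring

end

theorem hr_SU {q : ℕ} (hF : Fintype.card K = q ^ 2) (h : Odd q) : HR (SU 3 K q) := by
  obtain ⟨r, _, _, h2⟩ := char_odd K (hF ▸ h.pow)
  have t2 : (2 : K) ≠ 0 := Ring.two_ne_zero (by rwa [ringChar.eq K r])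
  obtain ⟨j, hj⟩ := QT.exists_j hF
  have j0 : j ≠ 0 := by rintro rfl; simp at hj
  have j1 : frob hF j = -j⁻¹ := by field_simp; linear_combination hj
  obtain ⟨s, hs⟩ : ∃ s, frob hF s ≠ s := by
    by_contra! e
    exact frob_ne_id hF (RingHom.ext e)
  let U : K → SU 3 K q := fun s => mkSU hF (uu j s (frob hF s)) (uu_det j0 t2 _ _)
    (uu_unit j0 t2 s j1 (frob_frob hF s))
  exact hr_of (ι := (slToMat 3 K).comp (SU 3 K q).subtype) (fun _ _ => mat_ext) h2 (U 1) (U s)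
    (mkSU hF _ (by simp [det_fin_three, j0]) (dd_unit j0 t2 j1)) (cc j (s - frob hF s))
    (congrArg (uu j 1) (map_one _)) rfl rfl (uu_nil j0 t2 _ _) (uu_nil j0 t2 _ _) (uu_cm j0 t2 _ _)
    (uu_cc j0 t2 _ _ _) (uu_cc j0 t2 _ _ _) (dd_cc j0 t2 _) (cc_cc j0 t2 _)
    fun e => hs (sub_eq_zero.1 (congrFun (congrFun e 0) 0)).symm

theorem jobMUni : JobMUni := fun K _ _ q hF h =>
  ⟨(hr_SU hF h).quot, ((hr_SU hF h).map _ (blkHom_injective hF (off 0 (by norm_num)))).quot,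
    ((hr_SU hF h).map _ (blkHom_injective hF (off 0 (by norm_num)))).quot⟩

/-- entrywise check -/
syntax "m4" : tactic
macro_rules
  | `(tactic| m4) => `(tactic| (
    ext (i | i) (l | l) <;> fin_cases i <;> fin_cases l <;>
      simp [J, pow_three, mul_apply, Fin.sum_univ_two, one_apply]))

/-- short root elements of `Sp₄` -/
def sa : symplecticGroup (Fin 2) K :=
  ⟨fromBlocks !![1, 1; 0, 1] 0 0 !![1, 0; -1, 1], SymplecticGroup.mem_iff.2 (by m4)⟩
/-- short root elements of `Sp₄` -/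
def sb (s : K) : symplecticGroup (Fin 2) K :=
  ⟨fromBlocks 1 !![0, s; s, 0] 0 1, SymplecticGroup.mem_iff.2 (by m4)⟩
/-- long root elements of `Sp₄` -/
def sc (s : K) : Matrix (Fin 2 ⊕ Fin 2) (Fin 2 ⊕ Fin 2) K := fromBlocks 0 !![s, 0; 0, 0] 0 0

theorem sa_sb (s : K) : (sa : symplecticGroup (Fin 2) K).1 * (sb s).1 =
    (1 + sc (2 * s)) * ((sb s).1 * sa.1) := by unfold sa sb sc; m4; ring
theorem sa_nil : ((sa : symplecticGroup (Fin 2) K).1 - 1) ^ 3 = 0 := by unfold sa; m4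
theorem sb_nil (s : K) : ((sb s).1 - 1) ^ 3 = 0 := by unfold sb; m4
theorem sc_sa (c : K) : sc c * sa.1 = sa.1 * sc c := by unfold sa sc; m4
theorem sc_sb (c s : K) : sc c * (sb s).1 = (sb s).1 * sc c := by unfold sb sc; m4
theorem w_val (s : K) : (⁅sa (K := K), sb s⁆).1 = 1 + sc (2 * s) :=
  cm_eq (ι := (symplecticGroup (Fin 2) K).subtype) (sa_sb s)
theorem w_add (s s' : K) : ⁅sa (K := K), sb (s + s')⁆ = ⁅sa (K := K), sb s⁆ * ⁅sa (K := K), sb s'⁆ :=
  Subtype.ext (by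
  rw [Submonoid.coe_mul, w_val, w_val, w_val]; unfold sc; m4; ring)

theorem w_nc (t2 : (2 : K) ≠ 0) {s : K} (hs : s ≠ 0) : ⁅sa (K := K), sb s⁆ ∉ Subgroup.center _ := fun c => by
  have := congrArg (fun g => g.1 (.inl 0) (.inl 0))
    (Subgroup.mem_center_iff.1 c ⟨_, SymplecticGroup.J_mem _ K⟩)
  simp [w_val, sc, J, mul_apply, one_apply, t2, hs] at this

theorem w_hz {r : ℕ} [Fact r.Prime] [CharP K r] (h2 : r ≠ 2) (s : K) : HZ r (sa (K := K)) (sb s) :=
  hz_of (ι := (symplecticGroup (Fin 2) K).subtype) Subtype.val_injective h2 sa_nil (sb_nil s) (sa_sb s)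
    (sc_sa _) (sc_sb _ _)

theorem heis_two {H : Type*} [Group H] {r : ℕ} (h1 : r.Prime) (h2 : r ≠ 2) {a : H} {b : K → H}
    (hz : ∀ s, HZ r a (b s)) (nc : ∀ s, s ≠ 0 → ⁅a, b s⁆ ∉ Subgroup.center H)
    (ad : ∀ s s', ⁅a, b (s + s')⁆ = ⁅a, b s⁆ * ⁅a, b s'⁆) {s : K} (s0 : s ≠ 0) (s1 : s ≠ 1)
    (s2 : s ≠ -1) : HeisR (H ⧸ Subgroup.center H) := by
  refine ⟨r, _, _, h1, h2, (hz 1).heis (nc 1 one_ne_zero), ?_⟩
  rintro rfl
  refine Or.inr ⟨_, _, _, _, (hz s).heis (nc s s0), (hz (1 + s)).heis (nc _ fun e =>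
    s2 (eq_neg_of_add_eq_zero_right e)), ?_, ?_, fun e => nc (s - 1) (sub_ne_zero.2 s1) ?_⟩
  · simp only [Commute, SemiconjBy, ← map_commutatorElement, ← map_mul, ← ad, add_comm]
  · simp only [← map_commutatorElement, ← map_mul, ← ad]
  · rw [← map_commutatorElement, ← map_commutatorElement, ← sub_add_cancel s 1, ad, map_mul,
      mul_eq_right] at e
    exact (QuotientGroup.eq_one_iff _).1 e

theorem heis_Sp (h : Odd (Fintype.card K)) (h3 : Fintype.card K ≠ 3) : HeisR (PSp 2 K) := by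
  classical
  obtain ⟨r, _, _, h2⟩ := char_odd K h
  obtain ⟨s, -, hs⟩ := Finset.exists_mem_notMem_of_card_lt_card (s := {0, 1, -1})
    (t := (Finset.univ : Finset K)) (Finset.card_le_three.trans_lt (by
      have := Fintype.one_lt_card (α := K)
      obtain ⟨k, hk⟩ := h
      rw [Finset.card_univ]; omega))
  simp only [Finset.mem_insert, Finset.mem_singleton, not_or] at hs
  exact heis_two Fact.out h2 (w_hz h2)
    (fun _ => w_nc (Ring.two_ne_zero (by rwa [ringChar.eq K r]))) w_add hs.1 hs.2.1 hs.2.2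

theorem jobMLin : JobMLin := fun K _ _ h =>
  ⟨(hr_SL h).quot, ((hr_SL h).map (slBlk (off 0 (by norm_num)))
    fun _ _ e => Subtype.ext (blk_injective _ (congrArg Subtype.val e))).quot,
    ((hr_SL h).map (slBlk (off 0 (by norm_num)))
    fun _ _ e => Subtype.ext (blk_injective _ (congrArg Subtype.val e))).quot, heis_Sp h⟩

end H81.LDH
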