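import Cfsg.Agent.H81.PM24
set_option maxRecDepth 1000000
set_option Elab.async false
namespace H81.M22G
open H71
noncomputable def a : ℕ := 0x800000040000010000200000000008002000000200000040020000000004100000004000008000000010080000000400000800000100000080000002001000000020400000000001
noncomputable def ai : ℕ := 0x800000000002100000002000000200400000008000200000000800001000040000000008000080000100020000000040000020010000000004000400080000004000000010000001
noncomputable def b : ℕ := 0x800000000020000800002000020000000010008000000080010000000002000400000100000200080000004000000004000040040000001000100000400000200000000008000001
noncomputable def bi : ℕ := 0x800000000008000004000010000400000040080000008000020000000200100000000020200000002000000800001000010000000080400000040000000002000100004000000001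
theorem good0 : GoodM (PM24.C) (PM24.ι Cfsg.Spor.M22) ⊤ [M22G.b, M22G.bi, M22G.a, M22G.ai] :=
  PM24.good H72.pg22_mem (by decide +kernel)
end H81.M22G
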