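import Cfsg.Agent.H62.URatMat
import Cfsg.Agent.H62.UComp

set_option autoImplicit false

/-! Orthogonal rational structures on unitary spaces, given by semilinear involutions. -/

namespace H81.U8

open Module H59 H62

variable {F V : Type*} [Field F] [AddCommGroup V] [Module F V] {σ : F →+* F}
  {B : V →ₛₗ[σ] V →ₗ[F] F} {τ : V →ₛₗ[σ] V}

/-- A semilinear involution compatible with the form. -/
structure Str (B : V →ₛₗ[σ] V →ₗ[F] F) (τ : V →ₛₗ[σ] V) : Prop where
  herm : IsHerm B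
  inv : ∀ x, τ (τ x) = x
  form : ∀ x y, B (τ x) (τ y) = B y x
  two : (2 : F) ≠ 0

/-- The automorphisms commuting with `τ`. -/
def cz (τ : V →ₛₗ[σ] V) : Subgroup (V ≃ₗ[F] V) where
  carrier := {e | ∀ x, τ (e x) = e (τ x)}
  mul_mem' {a b} ha hb x := by simp only [LinearEquiv.mul_apply]; rw [ha, hb]
  one_mem' _ := rfl
  inv_mem' {a} ha x := a.injective (by
    rw [← ha]; simp [LinearEquiv.coe_inv])

/-- The automorphisms commuting with `τ` up to a scalar. -/
def cg (τ : V →ₛₗ[σ] V) : Subgroup (V ≃ₗ[F] V) where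
  carrier := {e | ∃ c : F, c ≠ 0 ∧ ∀ x, τ (c • e x) = c • e (τ x)}
  mul_mem' := by
    rintro a b ⟨c, hc, ha⟩ ⟨d, hd, hb⟩
    refine ⟨c * d, mul_ne_zero hc hd, fun x => ?_⟩
    rw [LinearEquiv.mul_apply, LinearEquiv.mul_apply, mul_smul, ← map_smul a, ha, hb, map_smul,
      mul_smul]
  one_mem' := ⟨1, one_ne_zero, fun x => by simp⟩
  inv_mem' := by
    rintro a ⟨c, hc, ha⟩
    refine ⟨c⁻¹, inv_ne_zero hc, fun x => a.injective ?_⟩
    have := ha (c⁻¹ • a⁻¹ x)
    rw [map_smul a, LinearEquiv.coe_inv, LinearEquiv.apply_symm_apply, smul_inv_smul₀ hc] at this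
    rw [map_smul a, LinearEquiv.coe_inv, LinearEquiv.apply_symm_apply, this, inv_smul_smul₀ hc]

theorem cz_le_cg : cz τ ≤ cg τ := fun _ he => ⟨1, one_ne_zero, fun x => by simpa using he x⟩

theorem cz_of_fix {e : V ≃ₗ[F] V} (he : e ∈ cg τ) {u : V} (hu : τ u = u) (hu0 : u ≠ 0)
    (heu : e u = u) : e ∈ cz τ := by
  obtain ⟨c, hc, h1⟩ := he
  have h2 := h1 u
  rw [hu, heu, map_smulₛₗ, hu] at h2
  have h3 : σ c = c := smul_left_injective F hu0 h2
  intro x
  have := h1 x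
  rw [map_smulₛₗ, h3] at this
  exact smul_right_injective V hc this

/-- The reflection formula. -/
def rf (B : V →ₛₗ[σ] V →ₗ[F] F) (n x : V) : V := x - (2 * B n x / B n n) • n

theorem perp4 [FiniteDimensional F V] (h : IsHerm B) (h4 : finrank F V = 4) (v w : Fin 4 → V)
    (h1 : ∀ i j, i ≠ j → B (w i) (v j) = 0) (h2 : ∀ i, B (w i) (v i) ≠ 0) {x : V}
    (hx : ∀ i, B (v i) x = 0) : x = 0 := by
  have li : LinearIndependent F v := Fintype.linearIndependent_iff.2 fun g hg i => by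
    have := congrArg (B (w i)) hg
    rw [map_sum, Finset.sum_eq_single i (fun j _ hj => by simp [h1 i j hj.symm]) (by simp)] at this
    simpa [h2 i] using this
  have := li.span_eq_top_of_card_eq_finrank' (by simp [h4])
  have h3 : x ∈ perp B (Submodule.span F (Set.range v)) := mem_perp_span.2 (by
    rintro _ ⟨i, rfl⟩; exact hx i)
  simpa [this, h.perp_top] using h3

theorem perp_hyp [FiniteDimensional F V] (h : IsHerm B) (h4 : finrank F V = 4) {e f n m : V}
    (ee : B e e = 0) (ff : B f f = 0) (ef : B e f ≠ 0) (en : B e n = 0) (em : B e m = 0)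
    (fn : B f n = 0) (fm : B f m = 0) (nm : B n m = 0) (nn : B n n ≠ 0) (mm : B m m ≠ 0) {x : V}
    (x1 : B e x = 0) (x2 : B f x = 0) (x3 : B n x = 0) (x4 : B m x = 0) : x = 0 := by
  have c := @h.eq_zero_comm
  refine perp4 h h4 ![e, f, n, m] ![f, e, n, m] (fun i j hij => ?_) (fun i => ?_) fun i => ?_
  · fin_cases i <;> fin_cases j <;> simp_all
  · fin_cases i <;> simp_all
  · fin_cases i <;> simp_all

theorem perp_orth [FiniteDimensional F V] (h : IsHerm B) (h4 : finrank F V = 4) {e f n m : V}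
    (ee : B e e ≠ 0) (ff : B f f ≠ 0) (ef : B e f = 0) (en : B e n = 0) (em : B e m = 0)
    (fn : B f n = 0) (fm : B f m = 0) (nm : B n m = 0) (nn : B n n ≠ 0) (mm : B m m ≠ 0) {x : V}
    (x1 : B e x = 0) (x2 : B f x = 0) (x3 : B n x = 0) (x4 : B m x = 0) : x = 0 := by
  have c := @h.eq_zero_comm
  refine perp4 h h4 ![e, f, n, m] ![e, f, n, m] (fun i j hij => ?_) (fun i => ?_) fun i => ?_
  · fin_cases i <;> fin_cases j <;> simp_all
  · fin_cases i <;> simp_all
  · fin_cases i <;> simp_all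

theorem iso3 [Finite F] (two : (2 : F) ≠ 0) {a b c : F} (ha : σ a = a) (hb : σ b = b)
    (hc : σ c = c) (ha0 : a ≠ 0) (hb0 : b ≠ 0) :
    ∃ x y, σ x = x ∧ σ y = y ∧ a * x ^ 2 + b * y ^ 2 + c = 0 := by
  classical
  let K := σ.eqLocusField (RingHom.id F)
  have := Fintype.ofFinite K
  have hK : ringChar K ≠ 2 := fun h0 => two (by
    have : ((2 : ℕ) : K) = 0 := h0 ▸ ringChar.Nat.cast_ringChar
    have := congrArg K.subtype this
    rwa [map_natCast, map_zero, Nat.cast_ofNat] at this)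
  obtain ⟨x, y, h⟩ := FiniteField.exists_root_sum_quadratic
    (Polynomial.degree_quadratic (a := (⟨a, ha⟩ : K)) (b := 0) (c := 0)
      fun h0 => ha0 (congrArg Subtype.val h0))
    (Polynomial.degree_quadratic (a := (⟨b, hb⟩ : K)) (b := 0) (c := ⟨c, hc⟩)
      fun h0 => hb0 (congrArg Subtype.val h0)) (FiniteField.odd_card_of_char_ne_two hK)
  refine ⟨x, y, x.2, y.2, ?_⟩
  have := congrArg K.subtype h
  simpa [add_assoc] using this

namespace Str

theorem sig (h : Str B τ) {y : V} (hy : τ y = y) (x : V) : σ (B y x) = B y (τ x) := by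
  rw [h.herm.symm, ← h.form, hy]

theorem fix (h : Str B τ) {x y : V} (hx : τ x = x) (hy : τ y = y) : σ (B x y) = B x y := by
  rw [h.sig hx, hy]

theorem sym (h : Str B τ) {x y : V} (hx : τ x = x) (hy : τ y = y) : B x y = B y x := by
  rw [← h.fix hx hy, h.herm.symm]

theorem adj (h : Str B τ) (x y : V) : B x (τ y) = B y (τ x) := by rw [← h.form, h.inv]

theorem ind (h : Str B τ) {S T : Submodule F V} (hS : ∀ x ∈ S, τ x ∈ S)
    (hT : ∀ x ∈ S, τ x = x → x ∈ T) : S ≤ T := fun x hx => by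
  obtain ⟨d, hd0, hd⟩ := exists_trace_zero_ne_zero h.herm.ne_id h.herm.invol
  have hd' : σ d = -d := by linear_combination hd
  have h1 := hT (x + τ x) (add_mem hx (hS x hx)) (by simp [h.inv, add_comm])
  have h2 := hT (d • (x - τ x)) (S.smul_mem _ (sub_mem hx (hS x hx))) (by
    simp only [map_smulₛₗ, map_sub, h.inv, hd']; module)
  have two := h.two
  convert add_mem (T.smul_mem (2 : F)⁻¹ h1) (T.smul_mem (2 * d)⁻¹ h2) using 1
  match_scalars <;> field_simp <;> ring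

theorem comm_of_fix (h : Str B τ) (g : V →ₗ[F] V) (hg : ∀ x, τ x = x → τ (g x) = g x) (x : V) :
    τ (g x) = g (τ x) := by
  let T : Submodule F V :=
    { carrier := {x | τ (g x) = g (τ x)}
      zero_mem' := by simp
      add_mem' := fun {a b} ha hb => by
        simp only [Set.mem_ofPred_eq, map_add] at ha hb ⊢; rw [ha, hb]
      smul_mem' := fun c a ha => by
        simp only [Set.mem_ofPred_eq, map_smul, map_smulₛₗ] at ha ⊢; rw [ha] }
  exact h.ind (S := ⊤) (T := T) (by simp) (fun y _ hy => by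
    change τ (g y) = g (τ y); rw [hg y hy, hy]) Submodule.mem_top

theorem exists_ne (h : Str B τ) {p : V} (hp : p ≠ 0) : ∃ f, τ f = f ∧ B p f ≠ 0 := by
  by_contra! hc
  exact hp (h.herm.nondeg p fun y =>
    h.ind (S := ⊤) (T := LinearMap.ker (B p)) (by simp) (fun f _ hf => hc f hf) Submodule.mem_top)

theorem exists_ns (h : Str B τ) {S : Submodule F V} (hS : ∀ x ∈ S, τ x ∈ S) {p : V} (hp : p ∈ S)
    (hp0 : B p p ≠ 0) : ∃ n ∈ S, τ n = n ∧ B n n ≠ 0 := by
  by_contra! hc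
  have h1 : ∀ x ∈ S, τ x = x → ∀ y ∈ S, B x y = 0 := fun x hx hx' =>
    h.ind (T := LinearMap.ker (B x)) hS fun y hy hy' => by
      have := hc (x + y) (add_mem hx hy) (by simp [hx', hy'])
      simp only [map_add, LinearMap.add_apply, hc x hx hx', hc y hy hy', h.sym hy' hx'] at this
      exact (mul_eq_zero.1 (show 2 * B x y = 0 by linear_combination this)).resolve_left h.two
  exact hp0 (h.ind (T := LinearMap.ker (B p)) hS
    (fun x hx hx' => h.herm.eq_zero_comm.1 (h1 x hx hx' p hp)) hp)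

theorem perp_st (h : Str B τ) {S : Submodule F V} (hS : ∀ x ∈ S, τ x ∈ S) :
    ∀ y ∈ perp B S, τ y ∈ perp B S := fun y hy x hx => by
  rw [← h.inv x, h.form]; exact h.herm.eq_zero_comm.1 (hy _ (hS x hx))

theorem span_st {s : Set V} (hs : ∀ x ∈ s, τ x ∈ Submodule.span F s) :
    ∀ x ∈ Submodule.span F s, τ x ∈ Submodule.span F s := fun x hx => by
  induction hx using Submodule.span_induction with
  | mem x hx => exact hs x hx
  | zero => simp
  | add x y _ _ h1 h2 => rw [map_add]; exact add_mem h1 h2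
  | smul a x _ h1 => rw [map_smulₛₗ]; exact Submodule.smul_mem _ _ h1

variable [FiniteDimensional F V]

theorem step (h : Str B τ) {S : Submodule F V} (hS : ∀ x ∈ S, τ x ∈ S)
    (hd : Disjoint S (perp B S)) (hlt : finrank F S < finrank F V) :
    ∃ n ∈ perp B S, τ n = n ∧ B n n ≠ 0 ∧ (∀ x ∈ S ⊔ F ∙ n, τ x ∈ S ⊔ F ∙ n) ∧
      Disjoint (S ⊔ F ∙ n) (perp B (S ⊔ F ∙ n)) ∧ finrank F (S ⊔ F ∙ n : Submodule F V) ≤ finrank F S + 1 := by
  obtain ⟨p, hp, hp0⟩ := h.herm.exists_self_ne_zero_perp hd hlt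
  obtain ⟨n, hn, hn', hn0⟩ := h.exists_ns (h.perp_st hS) hp hp0
  refine ⟨n, hn, hn', hn0, fun x hx => ?_, Submodule.disjoint_def.2 fun x hx hx' => ?_, ?_⟩
  · obtain ⟨a, ha, b, hb, rfl⟩ := Submodule.mem_sup.1 hx
    obtain ⟨c, rfl⟩ := Submodule.mem_span_singleton.1 hb
    rw [map_add, map_smulₛₗ, hn']
    exact Submodule.add_mem_sup (hS a ha) (Submodule.smul_mem _ _ (Submodule.mem_span_singleton_self n))
  · obtain ⟨a, ha, b, hb, rfl⟩ := Submodule.mem_sup.1 hx
    obtain ⟨c, rfl⟩ := Submodule.mem_span_singleton.1 hb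
    rw [perp_sup] at hx'
    have h1 := mem_perp_singleton.1 hx'.2
    have h2 : c = 0 := by simpa [h.herm.eq_zero_comm.1 (hn a ha), hn0] using h1
    subst h2
    simpa using Submodule.disjoint_def.1 hd a ha (by simpa using hx'.1)
  · exact (Submodule.finrank_add_le_finrank_add_finrank _ _).trans
      (by have := finrank_span_one_le (F := F) n; omega)

theorem step2 (h : Str B τ) {S : Submodule F V} (hS : ∀ x ∈ S, τ x ∈ S)
    (hd : Disjoint S (perp B S)) (hlt : finrank F S + 2 ≤ finrank F V) :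
    ∃ n ∈ perp B S, ∃ m ∈ perp B S, τ n = n ∧ τ m = m ∧ B n n ≠ 0 ∧ B m m ≠ 0 ∧ B n m = 0 := by
  obtain ⟨n, hn, n1, n2, n3, n4, n5⟩ := h.step hS hd (by omega)
  obtain ⟨m, hm, m1, m2, -⟩ := h.step n3 n4 (by omega)
  rw [perp_sup] at hm
  exact ⟨n, hn, m, hm.1, n1, m1, n2, m2, mem_perp_singleton.1 hm.2⟩

theorem frame (h : Str B τ) (h4 : finrank F V = 4) {e f : V} (ee : B e e = 0) (ef : B e f ≠ 0)
    (he : τ e ∈ Submodule.span F {e, f}) (hf : τ f ∈ Submodule.span F {e, f}) :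
    ∃ n m, τ n = n ∧ τ m = m ∧ B n n ≠ 0 ∧ B m m ≠ 0 ∧ B n m = 0 ∧ B e n = 0 ∧ B f n = 0 ∧
      B e m = 0 ∧ B f m = 0 := by
  obtain ⟨n, hn, m, hm, h1, h2, h3, h5, h6⟩ := h.step2 (S := Submodule.span F {e, f})
    (span_st (by simp [he, hf])) (h.herm.disjoint_span_hyp ee ef)
    (by rw [h.herm.finrank_span_hyp ee ef]; omega)
  rw [mem_perp_pair] at hn hm
  exact ⟨n, m, h1, h2, h3, h5, h6, hn.1, hn.2, hm.1, hm.2⟩

omit [FiniteDimensional F V] in
theorem iso_of_three [Finite F] (h : Str B τ) {n m k : V} (hn : τ n = n) (hm : τ m = m)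
    (hk : τ k = k) (nn : B n n ≠ 0) (mm : B m m ≠ 0) (hk0 : k ≠ 0) (nm : B n m = 0)
    (nk : B n k = 0) (mk : B m k = 0) : ∃ x y, σ x = x ∧ σ y = y ∧ x • n + y • m + k ≠ 0 ∧
      B (x • n + y • m + k) (x • n + y • m + k) = 0 := by
  have c := @h.herm.eq_zero_comm
  obtain ⟨x, y, hx, hy, e⟩ := iso3 h.two (h.fix hn hn) (h.fix hm hm) (h.fix hk hk) nn mm
  refine ⟨x, y, hx, hy, fun h0 => ?_, ?_⟩
  · have h1 := congrArg (B n) h0
    have h2 := congrArg (B m) h0
    simp [nm, nk, mk, c.1 nm, nn, mm] at h1 h2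
    simp [h1, h2, hk0] at h0
  · simp [nm, nk, mk, c.1 nm, c.1 nk, c.1 mk, hx, hy]
    linear_combination e

theorem exists_iso [Finite F] (h : Str B τ) (h4 : finrank F V = 4) :
    ∃ w, τ w = w ∧ w ≠ 0 ∧ B w w = 0 := by
  obtain ⟨k, -, k1, k2, k3, k4, k5⟩ := h.step (S := ⊥) (by simp) (by simp) (by simp [h4])
  obtain ⟨n, hn, m, hm, h1, h2, h3, h5, h6⟩ := h.step2 k3 k4 (by simp at k5 ⊢; omega)
  rw [perp_sup] at hn hm
  have c := @h.herm.eq_zero_comm
  obtain ⟨x, y, hx, hy, p1, p2⟩ := h.iso_of_three h1 h2 k1 h3 h5 (by rintro rfl; simp at k2) h6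
    (c.1 (mem_perp_singleton.1 hn.2)) (c.1 (mem_perp_singleton.1 hm.2))
  exact ⟨_, by simp [hx, hy, h1, h2, k1], p1, p2⟩

omit [FiniteDimensional F V] in
theorem iso_sub (h : Str B τ) {w f : V} (hw : τ w = w) (ww : B w w = 0) (hf : τ f = f)
    (wf : B w f ≠ 0) : ∃ s, σ s = s ∧ B (f - s • w) (f - s • w) = 0 := by
  have two := h.two
  have hs : σ (B f f / (2 * B w f)) = B f f / (2 * B w f) := by
    simp [h.fix hf hf, h.fix hw hf, map_ofNat]
  refine ⟨_, hs, ?_⟩
  simp only [map_sub, LinearMap.sub_apply, form_smul_left, map_smul, ww, smul_eq_mul, hs,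
    h.sym hf hw]
  field_simp
  ring

omit [FiniteDimensional F V] in
theorem partner (h : Str B τ) {w : V} (hw : τ w = w) (ww : B w w = 0) (hw0 : w ≠ 0) :
    ∃ v, τ v = v ∧ B v v = 0 ∧ B v w = 1 ∧ B w v = 1 := by
  obtain ⟨f, hf, wf⟩ := h.exists_ne hw0
  obtain ⟨s, hs, e⟩ := h.iso_sub hw ww hf wf
  have h1 : τ ((B w f)⁻¹ • (f - s • w)) = (B w f)⁻¹ • (f - s • w) := by
    simp [h.fix hw hf, hs, hf, hw]
  have h2 : B w ((B w f)⁻¹ • (f - s • w)) = 1 := by simp [ww, wf]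
  exact ⟨_, h1, by rw [form_smul_left, map_smul, e]; simp, by rw [h.sym h1 hw, h2], h2⟩

theorem exists_iso_ne [Finite F] (h : Str B τ) (h4 : finrank F V = 4) {p : V} (hp : p ≠ 0) :
    ∃ z, τ z = z ∧ B z z = 0 ∧ B p z ≠ 0 := by
  by_contra! hc
  obtain ⟨w, hw, hw0, ww⟩ := h.exists_iso h4
  have key : ∀ f, τ f = f → B w f ≠ 0 → B p f = 0 := fun f hf wf => by
    obtain ⟨s, hs, e⟩ := h.iso_sub hw ww hf wf
    simpa [hc w hw ww] using hc _ (by simp [hf, hs, hw]) e
  obtain ⟨f, hf, wf⟩ := h.exists_ne hw0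
  obtain ⟨g, hg, pg⟩ := h.exists_ne hp
  by_cases h0 : B w g = 0
  · exact pg (by simpa [key f hf wf] using key (g + f) (by simp [hf, hg]) (by simpa [h0]))
  · exact pg (key g hg h0)

theorem exists_refl2 (h : Str B τ) {n m : V} (hn : τ n = n) (nn : B n n ≠ 0) (hm : τ m = m)
    (mm : B m m ≠ 0) : ∃ e ∈ sisom B, e ∈ cz τ ∧ ∀ x, e x = rf B n (rf B m x) := by
  have key : ∀ n, τ n = n → B n n ≠ 0 → ∃ e ∈ isom B, ((LinearEquiv.det e : Fˣ) : F) = -1 ∧
      e ∈ cz τ ∧ ∀ x, e x = rf B n x := fun n hn nn => by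
    have h1 : σ (-2 / B n n) = -2 / B n n := by simp [h.fix hn hn, map_ofNat]
    have h2 : -2 / B n n + σ (-2 / B n n) + -2 / B n n * σ (-2 / B n n) * B n n = 0 := by
      rw [h1]; field_simp; ring
    refine ⟨qref B n _ h2, h.herm.qref_mem_isom _ _ _, by rw [det_qref]; field_simp; ring,
      fun x => ?_, fun x => ?_⟩
    · simp only [qref_apply, map_add, map_smulₛₗ, map_mul, h1, h.sig hn, hn]
    · rw [qref_apply, rf, sub_eq_add_neg, ← neg_smul]; congr 2; ring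
  obtain ⟨a, a1, a2, a3, a4⟩ := key n hn nn
  obtain ⟨b, b1, b2, b3, b4⟩ := key m hm mm
  exact ⟨a * b, ⟨mul_mem a1 b1, Units.ext (by simp [-LinearEquiv.coe_det, a2, b2])⟩,
    mul_mem a3 b3, fun x => by rw [LinearEquiv.mul_apply, a4, b4]⟩

theorem exists_map (h : Str B τ) (h4 : finrank F V = 4) {w w' : V} (hw : τ w = w)
    (ww : B w w = 0) (hw0 : w ≠ 0) (hw' : τ w' = w') (ww' : B w' w' = 0) (hw0' : w' ≠ 0) :
    ∃ k ∈ sisom B, k ∈ cz τ ∧ k w = w' := by
  have two := h.two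
  have step : ∀ w w', τ w = w → B w w = 0 → τ w' = w' → B w' w' = 0 → B w w' ≠ 0 →
      ∃ k ∈ sisom B, k ∈ cz τ ∧ k w = w' := fun w w' hw ww hw' ww' h0 => by
    obtain ⟨n, -, hn, -, nn, -, -, -, p2, -⟩ := h.frame h4 ww h0
      (by rw [hw]; exact Submodule.subset_span (by simp))
      (by rw [hw']; exact Submodule.subset_span (by simp))
    have e1 : B (w - w') (w - w') = -2 * B w w' := by simp [ww, ww', h.sym hw' hw]; ring
    obtain ⟨k, k1, k2, k3⟩ := h.exists_refl2 hn nn (m := w - w') (by simp [hw, hw'])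
      (by rw [e1]; simp [two, h0])
    refine ⟨k, k1, k2, ?_⟩
    have e2 : rf B (w - w') w = w' := by
      rw [rf, e1]; simp only [map_sub, LinearMap.sub_apply, ww, h.sym hw' hw]
      match_scalars <;> field_simp <;> ring
    rw [k3, e2, rf, h.herm.eq_zero_comm.1 p2]; simp
  by_cases h0 : B w w' = 0
  swap; · exact step w w' hw ww hw' ww' h0
  obtain ⟨f, hf, p1, p2⟩ : ∃ f, τ f = f ∧ B w f ≠ 0 ∧ B w' f ≠ 0 := by
    obtain ⟨f, hf, wf⟩ := h.exists_ne hw0
    obtain ⟨g, hg, wg⟩ := h.exists_ne hw0'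
    by_cases q1 : B w' f = 0
    swap; · exact ⟨f, hf, wf, q1⟩
    by_cases q2 : B w g = 0
    swap; · exact ⟨g, hg, q2, wg⟩
    exact ⟨f + g, by simp [hf, hg], by simpa [q2], by simpa [q1]⟩
  obtain ⟨s, hs, e⟩ := h.iso_sub hw ww hf p1
  have hz : τ (f - s • w) = f - s • w := by simp [hf, hs, hw]
  obtain ⟨a, a1, a2, a3⟩ := step w _ hw ww hz e (by simpa [ww])
  obtain ⟨b, b1, b2, b3⟩ := step w' _ hw' ww' hz e (by simpa [h.herm.eq_zero_comm.1 h0])
  exact ⟨b⁻¹ * a, mul_mem (inv_mem b1) a1, mul_mem (inv_mem b2) a2, by simp [a3, ← b3]⟩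

omit [FiniteDimensional F V] in
theorem ue_cz (h : Str B τ) {w y : V} (hw : τ w = w) (hy : τ y = y) {a : F} (ha : σ a = a)
    {e : V ≃ₗ[F] V} (he : ∀ x, e x = x + B y x • w - B w x • y - (a * B w x) • w) : e ∈ cz τ :=
  fun x => by simp only [he, map_add, map_sub, map_smulₛₗ, map_mul, ha, h.sig hw, h.sig hy, hw, hy]

omit [FiniteDimensional F V] in
theorem exists_ue (h : Str B τ) {w y : V} (hw : τ w = w) (ww : B w w = 0) (hy : τ y = y)
    (wy : B w y = 0) : ∃ a, σ a = a ∧ a + σ a = B y y ∧ ∃ e ∈ sisom B, e ∈ cz τ ∧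
      ∀ x, e x = x + B y x • w - B w x • y - (a * B w x) • w := by
  have two := h.two
  have ha : σ (B y y / 2) = B y y / 2 := by simp [h.fix hy hy, map_ofNat]
  have ha' : B y y / 2 + σ (B y y / 2) = B y y := by rw [ha]; field_simp; ring
  obtain ⟨e, he, hx⟩ := h.herm.exists_eichler ww wy ha'
  exact ⟨_, ha, ha', e, he, h.ue_cz hw hy ha hx, hx⟩

omit [FiniteDimensional F V] in
theorem exists_rat_smul (h : Str B τ) {a : V} {c : F} (ha : τ a = c • a) :
    ∃ l : F, l ≠ 0 ∧ τ (l • a) = l • a := by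
  by_cases ha0 : a = 0
  · exact ⟨1, one_ne_zero, by simp [ha0]⟩
  have hc : σ c * c = 1 := by
    have := h.inv a
    rw [ha, map_smulₛₗ, ha, smul_smul] at this
    exact smul_left_injective F ha0 (by simpa using this)
  by_cases h1 : 1 + c = 0
  · obtain ⟨d, hd0, hd⟩ := exists_trace_zero_ne_zero h.herm.ne_id h.herm.invol
    refine ⟨d, hd0, ?_⟩
    rw [map_smulₛₗ, ha, smul_smul]
    congr 1
    linear_combination σ d * h1 - hd
  · refine ⟨_, h1, ?_⟩
    rw [map_smulₛₗ, ha, smul_smul, map_add, map_one]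
    congr 1
    linear_combination hc

end Str

end H81.U8
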