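import Cfsg.Agent.H81.U8A

set_option autoImplicit false

/-! Two orthogonal rational structures on a unitary 4-space. -/

namespace H81.U8

open Module H59 H62

variable {F V : Type*} [Field F] [AddCommGroup V] [Module F V] {σ : F →+* F}
  {B : V →ₛₗ[σ] V →ₗ[F] F} {τ τ' : V →ₛₗ[σ] V} [FiniteDimensional F V]

theorem geom_ne (h : Str B τ) (h' : Str B τ')
    (C1 : ∀ e ∈ sisom B, e ∈ cz τ → ∀ u, τ' u = u → B u u = 0 → u ≠ 0 → e u = u → e ∈ cz τ')
    (C2 : ∀ a (c c' : F), B a a = 0 → τ a = c • a → τ' a = c' • a → a = 0)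
    {u : V} (hu : τ' u = u) (uu : B u u = 0) (hu0 : u ≠ 0) : B u (τ u) ≠ 0 := fun h0 => by
  have H := h.herm
  obtain ⟨d, hd0, hd⟩ := exists_trace_zero_ne_zero H.ne_id H.invol
  have hd' : σ d = -d := by linear_combination hd
  have vv : B (τ u) (τ u) = 0 := by rw [h.form, uu]
  have h1 := H.eq_zero_comm.1 h0
  obtain ⟨a, ha, hax⟩ := H.exists_transv uu hd
  obtain ⟨b, hb, hbx⟩ := H.exists_transv vv (c := -d) (by rw [map_neg]; linear_combination -hd)
  have ex : ∀ x, (a * b) x = x + (d * B u x) • u - (d * B (τ u) x) • τ u := fun x => by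
    simp only [LinearEquiv.mul_apply, hax, hbx, map_add, map_smul, h0, smul_eq_mul]
    module
  have e1 : ∀ x, σ (B u x) = B (τ u) (τ x) := fun x => by rw [h.form, H.symm]
  have e2 : ∀ x, σ (B (τ u) x) = B u (τ x) := fun x => by rw [← h.inv u, h.form, h.inv, H.symm]
  have hc := C1 (a * b) (mul_mem (axisGrp_le_sisom uu ha) (axisGrp_le_sisom vv hb))
    (fun x => by
      simp only [ex, map_add, map_sub, map_smulₛₗ, map_mul, hd', e1, e2, h.inv]; module)
    u hu uu hu0 (by simp [ex, uu, h1])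
  have hn : u ∉ F ∙ τ u := fun hm => by
    obtain ⟨c, hc⟩ := Submodule.mem_span_singleton.1 hm
    have hc0 : c ≠ 0 := by rintro rfl; simp [hu0.symm] at hc
    exact hu0 (C2 u c⁻¹ 1 uu (by rw [eq_inv_smul_iff₀ hc0, hc]) (by simp [hu]))
  obtain ⟨x, hx, ux⟩ := H.exists_perp_ne_zero hn
  have hx := mem_perp_singleton.1 hx
  have e3 := hc (τ' x)
  simp only [ex, map_add, map_sub, map_smulₛₗ, map_mul, hd', h'.inv, hu, hx, h'.sig hu] at e3
  have e4 : σ (B (τ u) (τ' x)) • τ' (τ u) = (2 * B u x) • u :=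
    smul_right_injective V hd0 (by
      simp only [smul_smul]; linear_combination (norm := module) e3)
  have two := h.two
  have e5 : σ (B (τ u) (τ' x)) ≠ 0 := fun h0 => by
    rw [h0, zero_smul, eq_comm] at e4; simp [two, ux, hu0] at e4
  have e6 : τ' (τ u) = ((σ (B (τ u) (τ' x)))⁻¹ * (2 * B u x)) • u := by
    rw [mul_smul, eq_inv_smul_iff₀ e5, e4]
  have e7 := congrArg τ' e6
  rw [h'.inv, map_smulₛₗ, hu] at e7
  exact hu0 (C2 u _ 1 uu e7 (by simp [hu]))

theorem geom_frame (h : Str B τ) (h' : Str B τ') (h4 : finrank F V = 4) {s : F} (hs : σ s = s)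
    (hs0 : s ≠ 0) (hs1 : s ^ 2 ≠ 1)
    (C1 : ∀ e ∈ sisom B, e ∈ cz τ → ∀ u, τ' u = u → B u u = 0 → u ≠ 0 → e u = u → e ∈ cz τ')
    {u : V} (hu : τ' u = u) (uu : B u u = 0) (uv : B u (τ u) ≠ 0) :
    ∃ n m, τ n = n ∧ τ m = m ∧ B n n ≠ 0 ∧ B m m ≠ 0 ∧ B n m = 0 ∧ B u n = 0 ∧ B (τ u) n = 0 ∧
      B u m = 0 ∧ B (τ u) m = 0 ∧ ∃ α : F, τ' n = α • n ∧ τ' m = α • m := by
  have H := h.herm
  have c := @H.eq_zero_comm
  have two := h.two
  have hu0 : u ≠ 0 := by rintro rfl; simp at uv
  obtain ⟨n, m, hn, hm, nn, mm, nm, un, vn, um, vm⟩ := h.frame h4 uu uv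
    (Submodule.subset_span (by simp)) (by rw [h.inv]; exact Submodule.subset_span (by simp))
  refine ⟨n, m, hn, hm, nn, mm, nm, un, vn, um, vm, ?_⟩
  have mn := c.1 nm
  obtain ⟨e, he, he', ex⟩ := h.exists_refl2 hn nn hm mm
  have hc := C1 e he he' u hu uu hu0 (by simp [ex, rf, c.1 un, c.1 um])
  have key : ∀ y, e y = -y → y = (B n y / B n n) • n + (B m y / B m m) • m := fun y hy => by
    simp only [ex, rf, map_sub, map_smul, nm, smul_eq_mul, mul_zero, sub_zero] at hy
    refine smul_right_injective V two ?_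
    simp only [smul_add, smul_smul]
    linear_combination (norm := module) hy
  have en : e n = -n := by
    simp only [ex, rf, mn, mul_zero, zero_div, zero_smul, sub_zero, mul_div_cancel_right₀ _ nn]
    module
  have em : e m = -m := by
    simp only [ex, rf, mul_div_cancel_right₀ _ mm, map_sub, map_smul, nm, smul_eq_mul, mul_zero,
      sub_zero, zero_div, zero_smul]
    module
  have k1 := key (τ' n) (by rw [← hc, en, map_neg])
  have k2 := key (τ' m) (by rw [← hc, em, map_neg])
  rw [h'.adj n m] at k2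
  obtain ⟨t, ht, ht0, hμ⟩ : ∃ t, σ t = t ∧ t ≠ 0 ∧ B n n + t ^ 2 * B m m ≠ 0 := by
    by_cases h1 : B n n + 1 ^ 2 * B m m = 0
    · refine ⟨s, hs, hs0, fun h2 => hs1 (mul_right_cancel₀ mm ?_)⟩
      linear_combination h2 - h1
    · exact ⟨1, map_one σ, one_ne_zero, h1⟩
  have e1 : B (n + t • m) (n + t • m) = B n n + t ^ 2 * B m m := by simp [ht, nm, mn]; ring
  obtain ⟨r, hr, hr', rx⟩ := h.exists_refl2 hn nn (m := n + t • m) (by simp [hn, hm, ht])
    (by rwa [e1])
  have hc' := C1 r hr hr' u hu uu hu0 (by simp [rx, rf, c.1 un, c.1 um])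
  set μ := B n n + t ^ 2 * B m m with hμ'
  have rn : r n = (2 * B n n / μ - 1) • n - (2 * t / μ * B n n) • m := by
    rw [rx, rf, rf, e1, show B (n + t • m) n = B n n by simp [mn]]
    simp only [map_add, map_sub, map_smul, nm, smul_eq_mul, mul_zero, add_zero]
    match_scalars <;> field_simp <;> ring
  have rm : r m = (2 * t / μ * B m m) • n + (2 * B n n / μ - 1) • m := by
    rw [rx, rf, rf, e1, show B (n + t • m) m = t * B m m by simp [nm, ht]]
    simp only [map_add, map_sub, map_smul, nm, smul_eq_mul, mul_zero, add_zero]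
    match_scalars
    · field_simp; ring
    · field_simp; rw [hμ']; ring
  have sμ : σ μ = μ := by simp [hμ', h.fix hn hn, h.fix hm hm, ht]
  have sp : σ (2 * B n n / μ - 1) = 2 * B n n / μ - 1 := by simp [sμ, h.fix hn hn, map_ofNat]
  have sk : σ (2 * t / μ) = 2 * t / μ := by simp [sμ, ht, map_ofNat]
  have k0 : 2 * t / μ ≠ 0 := by simp [two, ht0, hμ]
  generalize 2 * B n n / μ - 1 = p at rn rm sp
  generalize 2 * t / μ = k at rn rm sk k0
  have e2 := hc' n
  generalize B n (τ' n) = a at k1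
  generalize B m (τ' n) = b at k1 k2
  generalize B m (τ' m) = d at k2
  rw [rn, k1, map_sub, map_smulₛₗ, map_smulₛₗ, map_mul, sp, sk, h.fix hn hn, k1, k2, map_add,
    map_smul, map_smul, rn, rm] at e2
  have e3 := congrArg (B n) e2
  have e4 := congrArg (B m) e2
  simp only [map_add, map_sub, map_smul, nm, mn, smul_eq_mul] at e3 e4
  have hb : b = 0 := by
    field_simp at e3
    refine (mul_eq_zero.1 (?_ : (2 * k * B n n * B m m) * b = 0)).resolve_left
      (by simp [two, k0, nn, mm])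
    linear_combination -e3
  subst hb
  refine ⟨a / B n n, by simp [k1], ?_⟩
  rw [k2, zero_div, zero_smul, zero_add]
  congr 1
  field_simp at e4 ⊢
  refine mul_left_cancel₀ (mul_ne_zero k0 nn) ?_
  linear_combination -e4

theorem geom [Finite F] (h : Str B τ) (h' : Str B τ') (h4 : finrank F V = 4) {s : F}
    (hs : σ s = s) (hs0 : s ≠ 0) (hs1 : s ^ 2 ≠ 1)
    (C1 : ∀ e ∈ sisom B, e ∈ cz τ → ∀ u, τ' u = u → B u u = 0 → u ≠ 0 → e u = u → e ∈ cz τ')
    (C2 : ∀ a (c c' : F), B a a = 0 → τ a = c • a → τ' a = c' • a → a = 0) : False := by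
  have H := h.herm
  have c := @H.eq_zero_comm
  obtain ⟨u, hu, hu0, uu⟩ := h'.exists_iso h4
  have uv := geom_ne h h' C1 C2 hu uu hu0
  obtain ⟨n, m, hn, hm, nn, mm, nm, un, vn, um, vm, α, an, am⟩ :=
    geom_frame h h' h4 hs hs0 hs1 C1 hu uu uv
  have mn := c.1 nm
  obtain ⟨u', hu', uu', nu'⟩ := h'.exists_iso_ne h4 (p := n) (by rintro rfl; simp at nn)
  have hu0' : u' ≠ 0 := by rintro rfl; simp at nu'
  have uv' := geom_ne h h' C1 C2 hu' uu' hu0'
  obtain ⟨n', m', hn', hm', nn', mm', nm', un', vn', um', vm', α', an', am'⟩ :=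
    geom_frame h h' h4 hs hs0 hs1 C1 hu' uu' uv'
  have mn' := c.1 nm'
  have hα : σ α * α = 1 := by
    have := h'.form n n
    rw [an, form_smul_left, map_smul, smul_eq_mul, ← mul_assoc] at this
    exact mul_right_cancel₀ nn (by simpa using this)
  by_cases hαα : α' = α
  · subst hαα
    have key : ∀ y, τ y = y → τ' y = α' • y → y = (B n y / B n n) • n + (B m y / B m m) • m :=
      fun y hy hy' => by
      by_contra hne
      have f1 : σ (B n y / B n n) = B n y / B n n := by simp [h.fix hn hn, h.fix hn hy]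
      have f2 : σ (B m y / B m m) = B m y / B m m := by simp [h.fix hm hm, h.fix hm hy]
      obtain ⟨a, b, ha, hb, p1, p2⟩ := h.iso_of_three hn hm
        (k := y - ((B n y / B n n) • n + (B m y / B m m) • m))
        (by rw [map_sub, map_add, map_smulₛₗ, map_smulₛₗ, f1, f2, hy, hn, hm]) nn mm
        (sub_ne_zero.2 hne) nm (by simp [nm, nn]) (by simp [mn, mm])
      refine p1 (C2 _ 1 α' p2 ?_ ?_)
      · simp only [map_add, map_sub, map_smulₛₗ, f1, f2, hy, hn, hm, ha, hb, one_smul]
      · simp only [map_add, map_sub, map_smulₛₗ, f1, f2, hy', an, am, ha, hb]; module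
    have k1 := key n' hn' an'
    have k2 := key m' hm' am'
    have vv : B (τ u) (τ u) = 0 := by rw [h.form, uu]
    have p1 : B u n' = 0 := by rw [k1]; simp [un, um]
    have p2 : B (τ u) n' = 0 := by rw [k1]; simp [vn, vm]
    have p3 : B u m' = 0 := by rw [k2]; simp [un, um]
    have p4 : B (τ u) m' = 0 := by rw [k2]; simp [vn, vm]
    have := perp_hyp H h4 uu vv uv p1 p3 p2 p4 nm' nn' mm'
      (x := n - ((B n' n / B n' n') • n' + (B m' n / B m' m') • m')) (by simp [un, p1, p3])
      (by simp [vn, p2, p4]) (by simp [nm', nn']) (by simp [mn', mm'])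
    have := congrArg (B u') this
    simp [un', um', c (x := u'), nu'] at this
  · have key : ∀ x y, τ x = x → τ y = y → τ' x = α • x → τ' y = α' • y → B x y = 0 :=
      fun x y hx hy hx' hy' => by
      have := h'.form x y
      rw [hx', hy', form_smul_left, map_smul, smul_eq_mul, h.sym hy hx] at this
      refine (mul_eq_zero.1 (?_ : (α' - α) * B x y = 0)).resolve_left (sub_ne_zero.2 hαα)
      linear_combination α * this - α' * B x y * hα
    have p1 := key n n' hn hn' an an'
    have p2 := key n m' hn hm' an am'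
    have p3 := key m n' hm hn' am an'
    have p4 := key m m' hm hm' am am'
    have := perp_orth H h4 nn mm nm p1 p2 p3 p4 nm' nn' mm'
      (x := u - ((B n' u / B n' n') • n' + (B m' u / B m' m') • m')) (by simp [c.1 un, p1, p2])
      (by simp [c.1 um, p3, p4]) (by simp [nm', nn']) (by simp [mn', mm'])
    rw [sub_eq_zero] at this
    have e1 : τ' u = α' • τ u := by
      rw [this]; simp only [map_add, map_smulₛₗ, an', am', hn', hm']; module
    have hα' : α' ≠ 0 := by rintro rfl; simp [hu, hu0] at e1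
    exact hu0 (C2 u α'⁻¹ 1 uu (by rw [eq_inv_smul_iff₀ hα', ← e1, hu]) (by simp [hu]))

end H81.U8
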