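import Cfsg.Agent.H81.U8B
import Cfsg.Agent.H13.SL4Spec

set_option autoImplicit false

/-! The orthogonal subfield subgroups of `SU₄(q)`, `q ≥ 5` odd, are maximal. -/

universe u

namespace H81.U8

open Module H59 H62

section

variable {F V : Type*} [Field F] [AddCommGroup V] [Module F V] {σ : F →+* F}
  {B : V →ₛₗ[σ] V →ₗ[F] F} {τ : V →ₛₗ[σ] V} [FiniteDimensional F V] {M : Subgroup (V ≃ₗ[F] V)}

/-- An overgroup of the stabiliser of the structure. -/
structure Ov (B : V →ₛₗ[σ] V →ₗ[F] F) (τ : V →ₛₗ[σ] V) (M : Subgroup (V ≃ₗ[F] V)) : Prop where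
  str : Str B τ
  h4 : finrank F V = 4
  le : ∀ e ∈ cg τ, e ∈ sisom B → e ∈ M
  sub : ∀ e ∈ M, e ∈ sisom B

/-- No transvections at rational points. -/
def Sm (B : V →ₛₗ[σ] V →ₗ[F] F) (τ : V →ₛₗ[σ] V) (M : Subgroup (V ≃ₗ[F] V)) : Prop :=
  ∀ w, τ w = w → B w w = 0 → w ≠ 0 → ∀ c, c + σ c = 0 → HasU M B w c → c = 0

namespace Ov

variable {w y : V}

theorem small_ue (h : Ov B τ M) (hs : Sm B τ M) (hw : τ w = w) (ww : B w w = 0) (hw0 : w ≠ 0)
    (hy : y ∈ addUE M h.str.herm ww) : ∃ c : F, τ (y - c • w) = y - c • w := by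
  have H := h.str.herm
  have st : ∀ x ∈ F ∙ w, τ x ∈ F ∙ w :=
    Str.span_st (by simp [hw])
  have h1 : τ y - y ∈ F ∙ w := by
    rw [← H.perp_perp (F ∙ w)]
    refine H.mem_perp'.2 (h.str.ind (T := LinearMap.ker (B (τ y - y))) (h.str.perp_st st)
      fun f hf hf' => ?_)
    have hf := mem_perp_singleton.1 hf
    obtain ⟨a, -, a2, e, e1, e2, e3⟩ := h.str.exists_ue hw ww hf' hf
    have := hs w hw ww hw0 _ (by simp [H.symm])
      (hasU_of_mem_addUE H ww hy ⟨hf, a, a2, e, h.le e (cz_le_cg e2) e1, e3⟩)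
    rw [LinearMap.mem_ker, map_sub, LinearMap.sub_apply, ← hf', h.str.form, hf']
    exact this
  obtain ⟨s, hs⟩ := Submodule.mem_span_singleton.1 h1
  have h2 : σ s = -s := by
    have := congrArg τ hs
    rw [map_smulₛₗ, hw, map_sub, h.str.inv, ← neg_sub, ← hs, ← neg_smul] at this
    exact smul_left_injective F hw0 this
  have two := h.str.two
  refine ⟨-(s / 2), ?_⟩
  rw [map_sub, map_smulₛₗ, hw, eq_add_of_sub_eq hs.symm, map_neg, map_div₀, h2, map_ofNat]
  match_scalars <;> field_simp <;> ring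

theorem mem_of_fix (h : Ov B τ M) (hs : Sm B τ M) {d : V ≃ₗ[F] V} (hd : d ∈ M) (hw : τ w = w)
    (hww : B w w = 0) (hw0 : w ≠ 0) {c : F} (hdw : d w = c • w) : d ∈ cg τ := by
  have H := h.str.herm
  have hB := (h.sub d hd).1
  have hc : σ c ≠ 0 := H.conj_ne_zero (by rintro rfl; simp [hw0] at hdw)
  obtain ⟨v, hv, p0, p1, p2⟩ := h.str.partner hw hww hw0
  have h1 : B w (d v) = (σ c)⁻¹ := by
    have := hB w v
    rw [hdw, form_smul_left, p2] at this
    exact eq_inv_of_mul_eq_one_right this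
  obtain ⟨a, t, ht, -, hy, ha, h2, htx⟩ := exists_ue_map H hww (v := d v) (v' := (σ c)⁻¹ • v)
    (by rw [h1]; exact inv_ne_zero hc) (by simp [h1, p2]) (by simp [hB v v, p0])
  generalize (B w (d v))⁻¹ • (d v - (σ c)⁻¹ • v) = y at hy htx ha
  have tw : t w = w := by simp [htx, hww, H.eq_zero_comm.1 hy]
  have key : ∀ x, τ x = x → B w x = 0 → ∃ l, τ l = l ∧ ∃ s : F,
      σ c • t (d x) = l + s • w := fun x hx q1 => by
    obtain ⟨_, -, q2, e, q3, q3', q4⟩ := h.str.exists_ue hw hww hx q1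
    have q5 : B w (σ c • d x) = 0 := by rw [map_smul, smul_eq_mul, ← form_smul_left, ← hdw, hB, q1]
    obtain ⟨s, hl⟩ := h.small_ue hs hw hww hw0 (y := σ c • d x) ⟨q5, _, by
      simp only [map_mul, H.invol, form_smul_left, map_smul, hB x x, ← q2, smul_eq_mul]; ring,
      (hdw ▸ HasUE.conj hd hB ⟨e, h.le e (cz_le_cg q3') q3, q4⟩).of_smul H⟩
    exact ⟨_, hl, s + B y (σ c • d x), by rw [← map_smul, htx, q5]; module⟩
  have hl : t * d ∈ cg τ := ⟨σ c, hc, h.str.comm_of_fix (σ c • (t * d : V ≃ₗ[F] V).toLinearMap)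
      fun x hx => by
    have r1 := h.str.fix hw hx
    have r2 := h.str.fix hv hx
    obtain ⟨l, hl, s, e⟩ := key (x - B w x • v - B v x • w)
      (by simp [hx, hv, hw, r1, r2]) (by simp [p2, hww])
    have q1 : s = -B v l := by
      have := ht.1 (d v) (d (x - B w x • v - B v x • w))
      rw [hB, h2, form_smul_left] at this
      have q2 := congrArg (B v) e
      simp only [map_sub, map_smul, p0, p1, smul_eq_mul, mul_zero, mul_one, sub_zero, sub_self,
        mul_eq_zero, map_inv₀, H.invol, inv_eq_zero, map_add] at this q2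
      rw [this.resolve_left fun h0 => hc (by simp [h0])] at q2
      linear_combination -q2
    have : σ c • (t * d) x = l + s • w + B w x • v + B v x • (σ c * c) • w := by
      rw [← e]
      simp only [LinearEquiv.mul_apply, map_sub, map_smul, h2, hdw, tw]
      match_scalars <;> field_simp <;> ring
    change τ (σ c • (t * d) x) = σ c • (t * d) x
    rw [this, q1]
    simp [hl, hw, hv, r1, r2, h.str.fix hv hl, H.invol, mul_comm]⟩
  have htM : t ∈ M := by
    simpa using M.mul_mem (h.le _ hl (mul_mem ht (h.sub d hd))) (M.inv_mem hd)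
  obtain ⟨s, hl'⟩ := h.small_ue hs hw hww hw0 (y := y) ⟨hy, a, ha, t, htM, htx⟩
  generalize hle : y - s • w = l at hl'
  obtain rfl : y = l + s • w := by rw [← hle]; abel
  have q1 : B w l = 0 := by simpa [hww] using hy
  obtain ⟨a', q2, q3, e, q4, q4', q5⟩ := h.str.exists_ue hw hww hl' q1
  have q6 := hs w hw hww hw0 _ (by
    simp only [map_add, LinearMap.add_apply, form_smul_left, map_smul, hww, q1,
      H.eq_zero_comm.1 q1, smul_eq_mul] at ha
    simp only [map_sub, map_add, H.invol]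
    linear_combination q3 - ha)
    ((HasUE.of_add_smul ⟨t, htM, htx⟩).sub_u H ⟨e, h.le e (cz_le_cg q4') q4, q5⟩ hww q1)
  have := h.str.ue_cz hw hl' q2 (e := t) fun x => by
    simp only [htx, map_add, LinearMap.add_apply, form_smul_left, sub_eq_zero.1 q6]; module
  simpa using mul_mem (inv_mem (cz_le_cg this)) hl

theorem mem_of_point (h : Ov B τ M) (hs : Sm B τ M) {d : V ≃ₗ[F] V} (hd : d ∈ M) (hw : τ w = w)
    (hww : B w w = 0) (hw0 : w ≠ 0) {c : F} (hc : c ≠ 0) (hdw : τ (c • d w) = c • d w) :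
    d ∈ cg τ := by
  obtain ⟨k, hk, hk', hkx⟩ := h.str.exists_map h.h4 hdw (by simp [(h.sub d hd).1 w w, hww])
    (by simp [hc, hw0]) hw hww hw0
  simpa using mul_mem (inv_mem (cz_le_cg hk')) (h.mem_of_fix hs
    (M.mul_mem (h.le k (cz_le_cg hk') hk) hd) hw hww hw0 (c := c⁻¹)
    (by rw [eq_inv_smul_iff₀ hc, LinearEquiv.mul_apply, ← map_smul, hkx]))

theorem full (h : Ov B τ M) (hw : τ w = w) (ww : B w w = 0) (hw0 : w ≠ 0) {c : F} (hc0 : c ≠ 0)
    (hc : c + σ c = 0) (h1 : HasU M B w c) {z : V} (hz : τ z = z) (zz : B z z = 0) :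
    FullU M B z := by
  by_cases z0 : z = 0
  · exact z0 ▸ FullU.zero
  have key : ∀ μ, σ μ = μ → HasU M B z (c * μ ^ 2) := fun μ hμ => by
    by_cases μ0 : μ = 0
    · exact ⟨1, M.one_mem, by simp [μ0]⟩
    obtain ⟨k, hk, hk', hkx⟩ := h.str.exists_map h.h4 hw ww hw0 (w' := μ • z) (by simp [hμ, hz])
      (by simp [zz]) (by simp [μ0, z0])
    obtain ⟨e, he, hx⟩ := hkx ▸ h1.conj (h.le k (cz_le_cg hk') hk) hk.1
    exact ⟨e, he, fun x => by rw [hx, form_smul_left, hμ, smul_smul]; congr 2; ring⟩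
  refine ⟨zz, fun a ha => ?_⟩
  have two := h.str.two
  have h2 : σ (a / c) = a / c := by
    rw [map_div₀, eq_neg_of_add_eq_zero_right hc, eq_neg_of_add_eq_zero_right ha, neg_div_neg_eq]
  have := (key ((a / c + 1) / 2) (by simp [-map_div₀, map_div₀ σ _ 2, h2, map_ofNat])).add zz
    ((key ((a / c - 1) / 2) (by simp [-map_div₀, map_div₀ σ _ 2, h2, map_ofNat])).neg zz)
  convert this using 1
  have : a = c * ((a / c + 1) / 2) ^ 2 + -(c * ((a / c - 1) / 2) ^ 2) := by field_simp; ring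
  rw [← this]; rfl

theorem top_of_full [Finite F] (h : Ov B τ M) (hf : ∀ z, τ z = z → B z z = 0 → FullU M B z) :
    ∀ e ∈ sisom B, e ∈ M := by
  have H := h.str.herm
  have c := @H.eq_zero_comm
  have two := h.str.two
  obtain ⟨e, he, he0, ee⟩ := h.str.exists_iso h.h4
  obtain ⟨f, hf', ff, fe, ef⟩ := h.str.partner he ee he0
  obtain ⟨n, m, hn, hm, nn, mm, nm, en, fn, em, fm⟩ := h.str.frame h.h4 ee (f := f) (by simp [ef])
    (by rw [he]; exact Submodule.subset_span (by simp))
    (by rw [hf']; exact Submodule.subset_span (by simp))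
  have k0 : ∀ e f n, τ e = e → τ f = f → τ n = n → B e e = 0 → B f f = 0 → B e f = 1 →
      B f e = 1 → B e n = 0 → B f n = 0 → ∀ ψ, σ ψ = ψ → ψ ≠ 0 →
      FullU M B (ψ • e + (-B n n / (2 * ψ)) • f + n) :=
    fun e f n he hf' hn ee ff ef fe en fn ψ hψ ψ0 =>
    hf _ (by simp [he, hf', hn, hψ, h.str.fix hn hn, map_ofNat]) (by
      simp [ee, ff, ef, fe, en, fn, c.1 en, c.1 fn, hψ, h.str.fix hn hn, map_ofNat]
      field_simp; ring)
  have k1 : ∀ e f, τ e = e → τ f = f → B e e = 0 → B f f = 0 → B e f = 1 → B f e = 1 →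
      B e n = 0 → B f n = 0 → ∀ ψ φ, φ + σ φ ≠ 0 → σ ψ * φ + σ φ * ψ + B n n = 0 →
      FullU M B (ψ • e + φ • f + n) := fun e f he hf' ee ff ef fe en fn ψ φ tφ hi => by
    have tφ' : σ φ + φ ≠ 0 := by rwa [add_comm]
    have φ0 : φ ≠ 0 := by rintro rfl; simp at tφ
    set x := -B n n / (φ + σ φ) with hx
    have x1 : σ x = x := by simp [hx, h.str.fix hn hn, H.invol, add_comm]
    have x0 : x ≠ 0 := by simp [hx, nn, tφ]
    have x2 : x * (φ + σ φ) + B n n = 0 := by rw [hx]; field_simp; ring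
    have r1 := (hf f hf' ff).add_smul H (k0 e f n he hf' hn ee ff ef fe en fn x x1 x0)
      (by simp [fe, ff, fn, x0]) (a := φ + B n n / (2 * x)) (by
        rw [show x • e + (-B n n / (2 * x)) • f + n + (φ + B n n / (2 * x)) • f =
          x • e + φ • f + n by module]
        simp [ee, ff, ef, fe, en, fn, c.1 en, c.1 fn, x1]
        linear_combination x2)
    rw [show x • e + (-B n n / (2 * x)) • f + n + (φ + B n n / (2 * x)) • f =
      x • e + φ • f + n by module] at r1
    have r2 := (hf e he ee).add_smul H r1 (by simp [ef, ee, en, φ0]) (a := ψ - x) (by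
      rw [show x • e + φ • f + n + (ψ - x) • e = ψ • e + φ • f + n by module]
      simp [ee, ff, ef, fe, en, fn, c.1 en, c.1 fn]
      linear_combination hi)
    rwa [show x • e + φ • f + n + (ψ - x) • e = ψ • e + φ • f + n by module] at r2
  have k2 : ∀ ψ φ, σ ψ * φ + σ φ * ψ + B n n = 0 → FullU M B (ψ • e + φ • f + n) :=
    fun ψ φ hi => by
    by_cases tφ : φ + σ φ = 0
    swap; · exact k1 e f he hf' ee ff ef fe en fn ψ φ tφ hi
    by_cases tψ : ψ + σ ψ = 0
    swap
    · rw [add_comm (ψ • e)]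
      exact k1 f e hf' he ff ee fe ef fn en φ ψ tψ (by linear_combination hi)
    have φ0 : φ ≠ 0 := by rintro rfl; simp [nn] at hi
    have r1 := k1 f e hf' he ff ee fe ef fn en φ (ψ + 1)
      (by rw [map_add, map_one]; intro h0; exact two (by linear_combination h0 - tψ))
      (by rw [map_add, map_one]; linear_combination hi + tφ)
    have r2 := (hf e he ee).add_smul H r1 (by simp [ef, ee, en, φ0]) (a := -1) (by
      rw [show φ • f + (ψ + 1) • e + n + (-1 : F) • e = ψ • e + φ • f + n by module]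
      simp [ee, ff, ef, fe, en, fn, c.1 en, c.1 fn]
      linear_combination hi)
    rwa [show φ • f + (ψ + 1) • e + n + (-1 : F) • e = ψ • e + φ • f + n by module] at r2
  have nd := H.disjoint_perp_perp (H.disjoint_span_singleton mm)
  have d3 : finrank F (perp B (F ∙ m)) = 3 := by
    have := H.finrank_add_finrank_perp (F ∙ m)
    rw [finrank_span_singleton (by rintro rfl; simp at mm), h.h4] at this
    omega
  have G : GoodU M B (perp B (F ∙ m)) := ⟨nd, d3.ge, locSU_of_forall_fullU H nd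
    (Or.inr ⟨-1, by simp, by simp, fun h0 => two (by linear_combination -h0)⟩) fun p hp pp => by
      have hp := mem_perp_singleton.1 hp
      have e1 := perp_hyp H h.h4 ee ff (by simp [ef]) en em fn fm nm nn mm
        (x := p - (B f p • e + B e p • f + (B n p / B n n) • n)) (by simp [ee, ef, en])
        (by simp [fe, ff, fn]) (by simp [c.1 en, c.1 fn, nn])
        (by simp [hp, c.1 em, c.1 fm, c.1 nm])
      rw [sub_eq_zero] at e1
      generalize B f p = ψ at e1
      generalize B e p = φ at e1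
      generalize B n p / B n n = χ at e1
      subst e1
      by_cases χ0 : χ = 0
      · subst χ0
        rw [zero_smul, add_zero] at pp ⊢
        by_cases φ0 : φ = 0
        · simpa [φ0] using (hf e he ee).smul H ψ
        rw [add_comm] at pp ⊢
        exact (hf e he ee).add_smul H ((hf f hf' ff).smul H φ) (by simp [ef, φ0]) pp
      have χ1 := H.conj_ne_zero χ0
      have := (k2 (ψ / χ) (φ / χ) (by
        simp [ee, ff, ef, fe, en, fn, c.1 en, c.1 fn] at pp
        simp only [map_div₀]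
        field_simp
        linear_combination pp)).smul H χ
      convert this using 1
      match_scalars <;> field_simp⟩
  refine G.mem_of_top H ?_ h.h4.ge
  have r1 := k0 e f m he hf' hm ee ff ef fe em fm 1 (map_one σ) one_ne_zero
  have r2 := mem_uSub (W := perp B (F ∙ m)) r1 fun h0 => by
    simpa [fe, ff, fm] using h0 f (mem_perp_singleton.2 (c.1 fm))
  rw [← H.perp_perp (uSub M B _), eq_top_iff]
  intro y _ x hx
  have q := fun z (hz : B z m = 0) => hx z (G.le_uSub H (mem_perp_singleton.2 (c.1 hz)))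
  have q1 := q e em
  have q2 := q f fm
  rw [perp_hyp H h.h4 ee ff (by simp [ef]) en em fn fm nm nn mm q1 q2 (q n nm)
    (by simpa [q1, q2] using hx _ r2)]
  simp

theorem maximal [Finite F] (h : Ov B τ M) {s : F} (hs : σ s = s) (hs0 : s ≠ 0) (hs1 : s ^ 2 ≠ 1)
    {g : V ≃ₗ[F] V} (hg : g ∈ M) (hng : g ∉ cg τ) : ∀ e ∈ sisom B, e ∈ M := by
  by_cases hS : Sm B τ M
  swap
  · simp only [Sm, not_forall] at hS
    obtain ⟨w, hw, ww, hw0, c, hc, h1, hc0⟩ := hS
    exact h.top_of_full fun z => h.full hw ww hw0 hc0 hc h1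
  exfalso
  have gB := (h.sub g hg).1
  have gB' : ∀ x y, B (g.symm x) (g.symm y) = B x y := (isom B).inv_mem gB
  let τ' : V →ₛₗ[σ] V := (g : V →ₗ[F] V).comp (τ.comp (g.symm : V →ₗ[F] V))
  have t : ∀ x, τ' x = g (τ (g.symm x)) := fun _ => rfl
  have h' : Ov B τ' M := ⟨⟨h.str.herm, fun x => by simp [t, h.str.inv],
    fun x y => by rw [t, t, gB, h.str.form, gB'], h.str.two⟩, h.h4, fun e he he' => by
      obtain ⟨c, hc, h1⟩ := he
      have := h.le (g⁻¹ * e * g) ⟨c, hc, fun x => g.injective (by simpa [t] using h1 (g x))⟩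
        (mul_mem (mul_mem (inv_mem (h.sub g hg)) he') (h.sub g hg))
      simpa [mul_assoc] using mul_mem (mul_mem hg this) (inv_mem hg), h.sub⟩
  have r : ∀ w, τ' w = w → τ (g.symm w) = g.symm w := fun w hw => g.injective (by simpa [t])
  have hS' : Sm B τ' M := fun w hw ww hw0 c hc h1 =>
    hS (g.symm w) (r w hw) (by rw [gB', ww]) (by simpa) c hc (h1.conj (inv_mem hg) ((isom B).inv_mem gB))
  refine geom h.str h'.str h.h4 hs hs0 hs1 (fun e he he' u hu uu hu0 eu => cz_of_fix
    (h'.mem_of_fix hS' (h.le e (cz_le_cg he') he) hu uu hu0 (c := 1) (by simpa)) hu hu0 eu)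
    fun a c c' aa h1 h2 => by_contra fun a0 => hng ?_
  obtain ⟨l, l0, hl⟩ := h.str.exists_rat_smul h1
  obtain ⟨l', l0', hl'⟩ := h'.str.exists_rat_smul h2
  refine h.mem_of_point hS hg (r _ hl') (by rw [gB']; simp [aa]) (by simp [l0', a0])
    (div_ne_zero l0 l0') ?_
  rwa [LinearEquiv.apply_symm_apply, smul_smul, div_mul_cancel₀ _ l0']

end Ov

theorem Str.exists_not_cg [Finite F] (h : Str B τ) (h4 : finrank F V = 4) :
    ∃ e ∈ sisom B, e ∉ cg τ := by
  obtain ⟨w, hw, hw0, ww⟩ := h.exists_iso h4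
  obtain ⟨v, hv, -, -, wv⟩ := h.partner hw ww hw0
  obtain ⟨d, hd0, hd⟩ := exists_trace_zero_ne_zero h.herm.ne_id h.herm.invol
  obtain ⟨e, he, hx⟩ := h.herm.exists_transv ww hd
  refine ⟨e, axisGrp_le_sisom ww he, fun h1 => ?_⟩
  have := cz_of_fix h1 hw hw0 (by simp [hx, ww]) v
  simp only [hx, hv, wv, map_add, map_smulₛₗ, hw, mul_one, add_right_inj] at this
  rw [smul_left_injective F hw0 this] at hd
  exact mul_ne_zero h.two hd0 (by linear_combination hd)

end

theorem exists_str {F₀ F V₀ V : Type*} [Field F₀] [Field F] [Algebra F₀ F] [AddCommGroup V₀]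
    [Module F₀ V₀] [AddCommGroup V] [Module F V] [Module F₀ V] [IsScalarTower F₀ F V]
    {j : V₀ →ₗ[F₀] V} {σ : F →+* F} {B : V →ₛₗ[σ] V →ₗ[F] F} [FiniteDimensional F₀ V₀]
    (h : IsBaseChange F j) (H : IsHerm B) (two : (2 : F) ≠ 0)
    (hσ : ∀ c, c ∈ ratF F₀ F ↔ σ c = c) (rat : ∀ x y, B (j x) (j y) ∈ ratF F₀ F) :
    ∃ τ : V →ₛₗ[σ] V, Str B τ ∧ ∀ e, e ∈ subf F j ↔ e ∈ cg τ := by
  let b₀ := finBasis F₀ V₀
  let b := h.basis b₀
  let τ : V →ₛₗ[σ] V :=
    { toFun := fun x => ∑ i, σ (b.repr x i) • b i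
      map_add' := fun x y => by simp [add_smul, Finset.sum_add_distrib]
      map_smul' := fun c x => by simp [Finset.smul_sum, smul_smul] }
  have t : ∀ x i, b.repr (τ x) i = σ (b.repr x i) := fun x i => by
    simp [τ, Finsupp.single_apply]
  have fx : ∀ x, x ∈ LinearMap.range j ↔ τ x = x := fun x => by
    constructor
    · rintro ⟨y, rfl⟩
      exact b.ext_elem fun i => by
        rw [t, h.basis_repr_comp_apply]; exact (hσ _).1 (alg_mem _)
    · intro hx
      rw [← b.sum_repr x]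
      exact sum_mem fun i _ => smul_mem_range ((hσ _).2 (by rw [← t, hx]))
        ⟨_, (h.basis_apply _ i).symm⟩
  have S : Str B τ := ⟨H, fun x => b.ext_elem fun i => by rw [t, t, H.invol], fun x y => by
    have e : ∀ i k, B (b i) (b k) = B (b k) (b i) := fun i k => by
      rw [← H.symm, h.basis_apply, h.basis_apply]; exact (hσ _).1 (rat _ _)
    conv_rhs => rw [← b.sum_repr x, ← b.sum_repr y]
    change B (∑ i, σ (b.repr x i) • b i) (∑ i, σ (b.repr y i) • b i) = _
    simp only [map_sum, LinearMap.sum_apply, form_smul_left, map_smul, smul_eq_mul, H.invol,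
      Finset.mul_sum]
    rw [Finset.sum_comm]
    exact Finset.sum_congr rfl fun i _ => Finset.sum_congr rfl fun k _ => by rw [e]; ring, two⟩
  refine ⟨τ, S, fun e => exists_congr fun c => and_congr_right fun hc => ⟨fun h1 => ?_, fun h1 x => ?_⟩⟩
  · exact S.comm_of_fix (c • e.toLinearMap) fun x hx => (fx _).1 ((h1 x).1 ((fx x).2 hx))
  · rw [fx, fx, h1, (smul_right_injective V hc).eq_iff, e.injective.eq_iff]

open Cfsg Cfsg.Geo in
theorem jobU8 : H13.L4.JobU8.{u} := by
  intro F _ _ q hF hodd h5 F₀ P hcard hP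
  have h := ratL_isBaseChange F₀ P
  have hf := finrank_eq_of_card hcard
  have H := isHerm_uForm hF 4
  have hσ := frob_eq_of_card hF F₀ hcard
  have fix : ∀ c, frob hF c = c → c ∈ ratF F₀ F := fun c hc => by
    by_contra h0
    refine H.ne_id (RingHom.ext fun t => ?_)
    obtain ⟨a, ha, b, hb, rfl⟩ := exists_one_add hf h0 t
    simp [hσ a ha, hσ b hb, hc]
  obtain ⟨τ, S, hτ⟩ := exists_str h H (two_ne_zero_of_odd (hF ▸ hodd.pow))
    (fun c => ⟨hσ c, fix c⟩) fun x y => by simpa using rat_of_isFormRat hF hP x y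
  obtain ⟨s, hs0, hs1⟩ : ∃ s : F₀, (s : F) ≠ 0 ∧ (s : F) ^ 2 ≠ 1 := by
    classical
    have := Fintype.ofFinite F₀
    have hq : Fintype.card F₀ = q := by
      rw [← Nat.card_eq_fintype_card]
      exact (Nat.pow_left_injective two_ne_zero (hF.symm.trans hcard)).symm
    obtain ⟨s, -, hs⟩ := Finset.exists_mem_notMem_of_card_lt_card (s := {0, 1, -1})
      (t := (Finset.univ : Finset F₀)) (by
        have := Finset.card_le_three (a := (0 : F₀)) (b := 1) (c := -1)
        rw [Finset.card_univ]; omega)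
    simp only [Finset.mem_insert, Finset.mem_singleton, not_or] at hs
    refine ⟨s, by simpa using hs.1, fun h1 => ?_⟩
    rcases mul_self_eq_one_iff.1 (sq (s : F) ▸ h1) with h2 | h2
    · exact hs.2.1 (Subtype.ext h2)
    · exact hs.2.2 (Subtype.ext h2)
  exact isMaximalIn_of_toLE (· ∈ cg τ) (· ∈ sisom (uForm hF 4)) (mem_su_iff hF)
    (fun g => and_congr ((mem_subfieldSubgroup_iff F₀ P g).trans (hτ _)) (mem_su_iff hF g))
    (S.exists_not_cg (by simp)) fun M hM hMB g hg hns =>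
      Ov.maximal ⟨S, by simp, hM, hMB⟩ (hσ s ⟨s, rfl⟩) hs0 hs1 hg hns

end H81.U8
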